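import Cfsg.Agent.Lib.HallHigman.OrbitBound
import Cfsg.Agent.Lib.HallHigman.TheoremB
import Cfsg.Agent.Lib.Coprime.Basic

set_option autoImplicit false

/-! The orbit bound without irreducibility: pass to an irreducible piece and apply Clifford theory. -/

namespace Cfsg.Agent.Lib.HallHigman

open scoped commutatorElement

universe u v w

variable {K : Type w} [Field K]

theorem card_le_aux [IsAlgClosed K] {p : ℕ} [hp : Fact p.Prime] [CharP K p] (n : ℕ) :
    ∀ (G : Type u) [Group G] (V : Type v) [AddCommGroup V] [Module K V] [FiniteDimensional K V] [Nontrivial V]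
      (ρ : G →* Module.End K V) (Q Zs R : Subgroup G) [Finite Q] (u : G) (m : ℕ),
      Module.finrank K V ≤ n → (Nat.card Q : K) ≠ 0 → Zs ≤ Q → (∀ a ∈ Q, ∀ b ∈ Q, IsScalar ρ ⁅a, b⁆) →
      (∀ t ∈ Zs, IsScalar ρ t) → (∀ t ∈ Q, (∀ s ∈ Q, ρ t * ρ s = ρ s * ρ t) → t ∈ Zs) →
      u ∈ Subgroup.normalizer (Q : Set G) → u ^ p ^ m = 1 → (ρ u - 1) ^ (p ^ m - 1) = 0 →
      (∀ t ∈ Q, ⁅u ^ p ^ (m - 1), t⁆ ∈ Zs → t ∈ R) →
      Nat.card Q ≤ (p ^ m - 1) ^ 2 * Nat.card (R ⊓ Q : Subgroup G) := by
  classical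
  induction n with
  | zero =>
    intro G _ V _ _ _ _ ρ Q Zs R _ u m hn
    exact absurd (Module.finrank_pos (R := K) (M := V)) (by omega)
  | succ n ih =>
    intro G _ V _ _ _ _ ρ Q Zs R _ u m hn hQK hZQ hcom hZ hZc huQ hu hr hR
    -- data on an invariant piece
    have hdata : ∀ (W : Submodule K V) (hW : Inv ρ (stab ρ W) W), W ≠ ⊥ → Q ≤ stab ρ W →
        (∀ a ∈ Q.subgroupOf (stab ρ W), ∀ b ∈ Q.subgroupOf (stab ρ W),
          IsScalar (restr ρ (stab ρ W) W hW) ⁅a, b⁆) ∧
        (∀ t ∈ Zs.subgroupOf (stab ρ W), IsScalar (restr ρ (stab ρ W) W hW) t) ∧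
        (∀ t ∈ Q.subgroupOf (stab ρ W), (∀ s ∈ Q.subgroupOf (stab ρ W),
          restr ρ (stab ρ W) W hW t * restr ρ (stab ρ W) W hW s =
            restr ρ (stab ρ W) W hW s * restr ρ (stab ρ W) W hW t) → t ∈ Zs.subgroupOf (stab ρ W)) := by
      intro W hW hne hQH
      have hsc : ∀ t : stab ρ W, IsScalar ρ (t : G) → IsScalar (restr ρ (stab ρ W) W hW) t := by
        rintro t ⟨c, hc⟩
        refine ⟨c, LinearMap.ext fun w => Subtype.ext ?_⟩
        rw [restr_coe, hc]
        rfl
      refine ⟨fun a ha b hb => hsc _ ?_, fun t ht => hsc t (hZ _ ht), fun t ht hcomm => ?_⟩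
      · rw [show ((⁅a, b⁆ : stab ρ W) : G) = ⁅(a : G), (b : G)⁆ from map_commutatorElement (stab ρ W).subtype a b]
        exact hcom _ ha _ hb
      · refine Subgroup.mem_subgroupOf.mpr (hZc _ ht fun s hs => ?_)
        obtain ⟨c, hc⟩ := hcom (t : G) ht s hs
        obtain ⟨w, hw, hw0⟩ := Submodule.exists_mem_ne_zero_of_ne_bot hne
        have e1 : ρ (t : G) * ρ s = c • (ρ s * ρ (t : G)) := by
          rw [← map_mul, ← map_mul, show (t : G) * s = ⁅(t : G), s⁆ * (s * t) by rw [commutatorElement_def]; group,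
            map_mul _ ⁅(t : G), s⁆, hc, smul_mul_assoc, one_mul]
        have h1 := congrArg Subtype.val (LinearMap.congr_fun (hcomm ⟨s, hQH hs⟩ hs) ⟨w, hw⟩)
        simp only [Module.End.mul_apply, restr_coe] at h1
        have h2 := LinearMap.congr_fun e1 w
        simp only [Module.End.mul_apply, LinearMap.smul_apply, h1] at h2
        have h3 : c = 1 := by
          have hx : ρ s (ρ (t : G) w) ≠ 0 := fun h => hw0 (rho_injective (ρ := ρ) (t : G)
            (by rw [map_zero]; exact rho_injective (ρ := ρ) s (by rw [h, map_zero])))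
          have h4 : (c - 1) • ρ s (ρ (t : G) w) = 0 := by rw [sub_smul, one_smul, ← h2, sub_self]
          exact sub_eq_zero.mp ((smul_eq_zero.mp h4).resolve_right hx)
        rw [e1, h3, one_smul]
    have hsub : ∀ (H : Subgroup G), Q ≤ H → ∀ (a : H), (a : G) ∈ Subgroup.normalizer (Q : Set G) →
        a ∈ Subgroup.normalizer ((Q.subgroupOf H) : Set H) := fun H _ a ha => by
      rw [Subgroup.mem_normalizer_iff]
      exact fun h => Subgroup.mem_normalizer_iff.mp ha (h : G)
    have hcardR : ∀ (H : Subgroup G), Q ≤ H →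
        Nat.card (R.subgroupOf H ⊓ Q.subgroupOf H : Subgroup H) = Nat.card (R ⊓ Q : Subgroup G) := fun H hQH => by
      rw [show R.subgroupOf H ⊓ Q.subgroupOf H = (R ⊓ Q).subgroupOf H from (Subgroup.comap_inf R Q _).symm]
      exact Coprime.card_subgroupOf (inf_le_right.trans hQH)
    by_cases hirr : ∀ W : Submodule K V, Inv ρ Q W → (∀ v ∈ W, ρ u v ∈ W) → W = ⊥ ∨ W = ⊤
    · obtain ⟨k, W, hk, hkN, hW, hWfix, hbij⟩ := clifford huQ (Nat.pow_pos hp.out.pos) (hu ▸ Q.one_mem) hirr
      obtain ⟨a, ham, rfl⟩ := (Nat.dvd_prime_pow hp.out).mp hkN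
      haveI := nontrivial_simpleSub hW
      set z := u ^ p ^ a with hz
      have hQH : Q ≤ stab ρ W := inv_iff_le_stab.mp hW.2.1
      have hzH : z ∈ stab ρ W := hWfix
      have hInv : Inv ρ (stab ρ W) W := fun g hg v hv => apply_mem_of_mem_stab hg hv
      have hindep : ∀ w0 ∈ W, ((ρ u - 1) ^ (p ^ a - 1)) w0 = 0 → w0 = 0 := by
        intro w0 hw0 h
        rw [rho_sub_one_pow_pred, LinearMap.sum_apply, ← Fin.sum_univ_eq_sum_range (fun i => (ρ u ^ i) w0)] at h
        have h1 : translateSum ρ u (p ^ a) W (fun _ => ⟨w0, hw0⟩) = 0 := by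
          rw [translateSum_apply]
          simpa only [map_pow] using h
        rw [← map_zero (translateSum ρ u (p ^ a) W)] at h1
        exact congrArg Subtype.val (congrFun (hbij.1 h1) ⟨0, hk⟩)
      have ham' : a < m := by
        refine lt_of_le_of_ne ham fun he => ?_
        obtain ⟨w, hw, hw0⟩ := Submodule.exists_mem_ne_zero_of_ne_bot hW.1
        exact hw0 (hindep w hw (by rw [he, hr, LinearMap.zero_apply]))
      have hpow : p ^ a * (p ^ (m - a) - 1) + (p ^ a - 1) = p ^ m - 1 := by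
        have h1 : p ^ a * p ^ (m - a) = p ^ m := by rw [← pow_add, Nat.add_sub_cancel' ham]
        have h2 := Nat.one_le_pow (m - a) p hp.out.pos
        have h3 := Nat.one_le_pow a p hp.out.pos
        obtain ⟨d, hd⟩ := Nat.exists_eq_add_of_le h2
        rw [hd, mul_add, mul_one] at h1
        rw [hd, Nat.add_sub_cancel_left]
        omega
      have hr' : ∀ w : W, ((ρ z - 1) ^ (p ^ (m - a) - 1)) (w : V) = 0 := by
        intro w
        refine hindep _ ?_ ?_
        · rw [← rho_pow_sub_one_restr hInv ⟨z, hzH⟩ _ w]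
          exact SetLike.coe_mem _
        · rw [hz, map_pow, ← rho_sub_one_pow, ← pow_mul, ← Module.End.mul_apply, ← pow_add,
            show p ^ a - 1 + p ^ a * (p ^ (m - a) - 1) = p ^ m - 1 by omega, hr, LinearMap.zero_apply]
      obtain ⟨hd1, hd2, hd3⟩ := hdata W hInv hW.1 hQH
      haveI : Finite (Q.subgroupOf (stab ρ W)) :=
        Finite.of_equiv Q (Subgroup.subgroupOfEquivOfLe hQH).toEquiv.symm
      have hirrW : Irred (restr ρ (stab ρ W) W hInv) (Q.subgroupOf (stab ρ W)) := by
        intro U hU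
        rcases hW.2.2 (U.map W.subtype) (Submodule.map_subtype_le W U) (by
          rintro s hs _ ⟨w, hw, rfl⟩
          exact ⟨_, hU ⟨s, hQH hs⟩ hs w hw, rfl⟩) with h | h
        · exact Or.inl (Submodule.map_injective_of_injective W.injective_subtype (h.trans (Submodule.map_bot _).symm))
        · exact Or.inr (Submodule.map_injective_of_injective W.injective_subtype
            (h.trans (Submodule.map_subtype_top W).symm))
      have hbound := card_le_of_classTwo (p := p) (restr ρ (stab ρ W) W hInv) (Q.subgroupOf (stab ρ W))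
        (Zs.subgroupOf (stab ρ W)) (R.subgroupOf (stab ρ W))
        (by rwa [Coprime.card_subgroupOf hQH]) hirrW (Subgroup.comap_mono hZQ) hd1 hd2 hd3
        (⟨z, hzH⟩ : stab ρ W) (m := m - a) (r := p ^ (m - a) - 1)
        (hsub _ hQH _ (Subgroup.pow_mem _ huQ _))
        (Subtype.ext (by
          show z ^ p ^ (m - a) = 1
          rw [hz, ← pow_mul, ← pow_add, Nat.add_sub_cancel' ham, hu]))
        (LinearMap.ext fun w => Subtype.ext (by rw [rho_pow_sub_one_restr]; exact hr' w))
        (fun t ht hty => Subgroup.mem_subgroupOf.mpr (hR _ ht (by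
          have h1 : ((⁅(⟨z, hzH⟩ : stab ρ W) ^ p ^ (m - a - 1), t⁆ : stab ρ W) : G) =
              ⁅z ^ p ^ (m - a - 1), (t : G)⁆ := map_commutatorElement (stab ρ W).subtype _ _
          have h2 : z ^ p ^ (m - a - 1) = u ^ p ^ (m - 1) := by
            rw [hz, ← pow_mul, ← pow_add]
            congr 2
            omega
          rw [← h2, ← h1]
          exact hty)))
      rw [Coprime.card_subgroupOf hQH, hcardR _ hQH] at hbound
      set N' := p ^ (m - a) with hN'
      have hN1 : 1 ≤ N' := Nat.one_le_pow _ _ hp.out.pos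
      rw [show N' - (N' - 1) = 1 by omega, mul_one] at hbound
      calc Nat.card Q ≤ (N' - 1) * (N' - 1) * Nat.card (R ⊓ Q : Subgroup G) := hbound
        _ ≤ _ := by
          rw [← sq]
          refine Nat.mul_le_mul_right _ (Nat.pow_le_pow_left ?_ 2)
          have : N' ≤ p ^ m := Nat.pow_le_pow_right hp.out.pos (Nat.sub_le m a)
          omega
    · push Not at hirr
      obtain ⟨W, hW, huW, hb, ht⟩ := hirr
      have hQH : Q ≤ stab ρ W := inv_iff_le_stab.mp hW
      have huH : u ∈ stab ρ W := mem_stab huW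
      have hInv : Inv ρ (stab ρ W) W := fun g hg v hv => apply_mem_of_mem_stab hg hv
      haveI : Nontrivial W := Submodule.nontrivial_iff_ne_bot.mpr hb
      haveI : Finite (Q.subgroupOf (stab ρ W)) :=
        Finite.of_equiv Q (Subgroup.subgroupOfEquivOfLe hQH).toEquiv.symm
      obtain ⟨hd1, hd2, hd3⟩ := hdata W hInv hb hQH
      have hlt := Submodule.finrank_lt ht
      have hres := ih (stab ρ W) W (restr ρ (stab ρ W) W hInv) (Q.subgroupOf (stab ρ W))
        (Zs.subgroupOf (stab ρ W)) (R.subgroupOf (stab ρ W)) ⟨u, huH⟩ m (by omega)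
        (by rwa [Coprime.card_subgroupOf hQH]) (Subgroup.comap_mono hZQ) hd1 hd2 hd3 (hsub _ hQH _ huQ)
        (Subtype.ext hu) (LinearMap.ext fun w => Subtype.ext (by rw [rho_pow_sub_one_restr, hr]; rfl))
        (fun t ht hty => Subgroup.mem_subgroupOf.mpr (hR _ ht (by
          have h1 : ((⁅(⟨u, huH⟩ : stab ρ W) ^ p ^ (m - 1), t⁆ : stab ρ W) : G) =
              ⁅u ^ p ^ (m - 1), (t : G)⁆ := map_commutatorElement (stab ρ W).subtype _ _
          rw [← h1]
          exact hty)))
      rwa [Coprime.card_subgroupOf hQH, hcardR _ hQH] at hres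

end Cfsg.Agent.Lib.HallHigman
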