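import Cfsg.Agent.Lib.OddLocal.SCN
import Mathlib

set_option autoImplicit false

/-!
Roots with small support in a finite `p`-group of matrices over another prime field commute:
they lie in every self-centralising abelian normal subgroup, as the weights moved by one of them
come in large orbits under the element and the Frobenius map.
-/

namespace Cfsg.Agent.Lib.HallHigman

open scoped commutatorElement

/-- Vectors of pairwise distinct weights with sum zero vanish. -/
theorem eq_zero_of_sum_weights {K V α ι : Type*} [Field K] [AddCommGroup V] [Module K V]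
    (T : α → Module.End K V) (χ : ι → α → K) (s : Finset ι) (hχ : Set.InjOn χ s) :
    ∀ v : ι → V, (∀ i ∈ s, ∀ a, T a (v i) = χ i a • v i) → ∑ i ∈ s, v i = 0 → ∀ i ∈ s, v i = 0 := by
  classical
  induction s using Finset.induction_on with
  | empty => intro v _ _ i hi; simp at hi
  | insert j s hj ih =>
    intro v hv hsum
    rw [Finset.coe_insert] at hχ
    have hzero : ∀ i ∈ s, ∀ a, (χ i a - χ j a) • v i = 0 := by
      intro i hi a
      refine ih (hχ.mono (Set.subset_insert _ _)) (fun i => (χ i a - χ j a) • v i) (fun i hi b => ?_) ?_ i hi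
      · rw [map_smul, hv i (Finset.mem_insert_of_mem hi) b, smul_comm]
      · have h1 : T a (∑ i ∈ insert j s, v i) - χ j a • ∑ i ∈ insert j s, v i = 0 := by simp [hsum]
        rw [map_sum, Finset.smul_sum, ← Finset.sum_sub_distrib, Finset.sum_insert hj,
          hv j (Finset.mem_insert_self _ _) a, sub_self, zero_add] at h1
        rw [← h1]
        exact Finset.sum_congr rfl fun i hi => by rw [hv i (Finset.mem_insert_of_mem hi) a, sub_smul]
    have hs : ∀ i ∈ s, v i = 0 := by
      intro i hi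
      by_contra hne
      refine hj ((hχ (Set.mem_insert_of_mem _ hi) (Set.mem_insert _ _) (funext fun a => ?_)) ▸ hi)
      exact sub_eq_zero.mp ((smul_eq_zero.mp (hzero i hi a)).resolve_right hne)
    intro i hi
    rcases Finset.mem_insert.mp hi with rfl | hi'
    · rwa [Finset.sum_insert hj, Finset.sum_eq_zero hs, add_zero] at hsum
    · exact hs i hi'

/-- A common eigenvector of commuting maps in an invariant subspace. -/
theorem exists_weight {K V α : Type*} [Field K] [IsAlgClosed K] [AddCommGroup V] [Module K V]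
    [FiniteDimensional K V] (T : α → Module.End K V) (hT : ∀ a b, T a * T b = T b * T a) (n : ℕ) :
    ∀ U : Submodule K V, Module.finrank K U ≤ n → U ≠ ⊥ → (∀ a, ∀ v ∈ U, T a v ∈ U) →
      ∃ v ∈ U, v ≠ 0 ∧ ∃ χ : α → K, ∀ a, T a v = χ a • v := by
  classical
  induction n with
  | zero => intro U hU hne _; exact absurd (Submodule.finrank_eq_zero.mp (Nat.le_zero.mp hU)) hne
  | succ n ih =>
    intro U hU hne hinv
    by_cases hall : ∀ a, ∃ c : K, ∀ v ∈ U, T a v = c • v
    · choose χ hχ using hall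
      obtain ⟨v, hv, hv0⟩ := Submodule.exists_mem_ne_zero_of_ne_bot hne
      exact ⟨v, hv, hv0, χ, fun a => hχ a v hv⟩
    push Not at hall
    obtain ⟨a, ha⟩ := hall
    haveI : Nontrivial U := Submodule.nontrivial_iff_ne_bot.mpr hne
    obtain ⟨c, hc⟩ := Module.End.exists_eigenvalue ((T a).restrict (hinv a))
    obtain ⟨w, hw⟩ := hc.exists_hasEigenvector
    have hw1 : T a w = c • (w : V) := congrArg Subtype.val hw.apply_eq_smul
    have hlt : U ⊓ Module.End.eigenspace (T a) c < U := by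
      refine lt_of_le_of_ne inf_le_left fun h => ?_
      obtain ⟨v, hv, hne'⟩ := ha c
      exact hne' (Module.End.mem_eigenspace_iff.mp (h.ge hv).2)
    have hle := Submodule.finrank_lt_finrank_of_lt hlt
    obtain ⟨v, hv, hv0, hχ⟩ := ih (U ⊓ Module.End.eigenspace (T a) c) (by omega)
      (fun h => hw.2 (Subtype.ext ((Submodule.eq_bot_iff _).mp h _ ⟨w.2, Module.End.mem_eigenspace_iff.mpr hw1⟩)))
      fun b v hv => ⟨hinv b v hv.1, Module.End.mem_eigenspace_iff.mpr (by
        rw [← Module.End.mul_apply, hT a b, Module.End.mul_apply, Module.End.mem_eigenspace_iff.mp hv.2, map_smul])⟩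
    exact ⟨v, hv.1, hv0, hχ⟩

/-- A root with small support centralises every abelian normal subgroup. -/
theorem mul_comm_of_small_range {p q : ℕ} [hp : Fact p.Prime] [hq : Fact q.Prime] (hp2 : p ≠ 2) (hqp : q ≠ p)
    {P : Type*} [Group P] [Finite P] (hP : IsPGroup p P) {D : ℕ} (M : P →* Matrix (Fin D) (Fin D) (ZMod q))
    (hM : Function.Injective M) (A : Subgroup P) [hAn : A.Normal] (hab : ∀ a ∈ A, ∀ b ∈ A, a * b = b * a)
    (z : P) {m : ℕ} (hm : m ≠ 0) (hz : z ^ p ^ m = 1)
    (hrange : Nat.card (LinearMap.range (Matrix.toLin' (M (z ^ p ^ (m - 1)) - 1))) ≤ (p ^ m - 1) ^ 2)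
    (a : P) (ha : a ∈ A) : z ^ p ^ (m - 1) * a = a * z ^ p ^ (m - 1) := by
  classical
  by_contra hne
  set y := z ^ p ^ (m - 1) with hy
  set N := p ^ m
  set c := ⁅y, a⁆ with hc
  have hcA : c ∈ A := by rw [hc, commutatorElement_def]; exact A.mul_mem (hAn.conj_mem a ha y) (A.inv_mem ha)
  have hc1 : c ≠ 1 := fun h => hne (commutatorElement_eq_one_iff_mul_comm.mp h)
  let K := AlgebraicClosure (ZMod q)
  haveI : CharP K q := charP_of_injective_algebraMap (algebraMap (ZMod q) K).injective q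
  haveI : ExpChar K q := ExpChar.prime hq.out
  let ι : ZMod q →+* K := algebraMap (ZMod q) K
  let ρ : P →* Module.End K (Fin D → K) :=
    ((Matrix.toLinAlgEquiv' (R := K) (n := Fin D)).toAlgHom.toRingHom.toMonoidHom.comp
      (RingHom.mapMatrix ι).toMonoidHom).comp M
  have hρ : Function.Injective ρ :=
    (Matrix.toLinAlgEquiv' (R := K)).injective.comp ((Matrix.map_injective ι.injective).comp hM)
  have hρapply : ∀ g x t, ρ g x t = ∑ l, ι (M g t l) * x l := fun g x t => by
    simp [ρ, Matrix.toLinAlgEquiv'_apply, Matrix.mulVec, dotProduct]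
  have hmul : ∀ g h x, ρ (g * h) x = ρ g (ρ h x) := fun g h x => by rw [map_mul]; rfl
  have hpK : (p : K) ≠ 0 := fun h => hqp
    ((Nat.prime_dvd_prime_iff_eq hq.out hp.out).mp ((CharP.cast_eq_zero_iff K q p).mp h))
  -- a weight moved by `y`
  set T : A → Module.End K (Fin D → K) := fun b => ρ (b : P) with hTdef
  obtain ⟨v, hvU, hv0, χ, hχ⟩ := exists_weight T
    (fun b b' => by simp only [hTdef, ← map_mul]; rw [hab _ b.2 _ b'.2]) _ (LinearMap.range (ρ c - 1)) le_rfl
    (fun h => hc1 (hρ (by rw [map_one, ← sub_eq_zero]; exact LinearMap.range_eq_bot.mp h)))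
    (fun b v hv => by
      obtain ⟨w, rfl⟩ := hv
      refine ⟨ρ (b : P) w, ?_⟩
      simp only [hTdef, LinearMap.sub_apply, Module.End.one_apply, map_sub, ← hmul]
      rw [hab c hcA _ b.2])
  have hinj := smul_left_injective K hv0
  have hχmul : ∀ b b' : A, χ (b * b') = χ b * χ b' := fun b b' => hinj (show χ (b * b') • v = (χ b * χ b') • v by
    rw [← hχ, mul_comm (χ b), ← smul_smul, ← hχ b, ← map_smul, ← hχ b']
    exact hmul _ _ _)
  have hχ1 : χ 1 = 1 := hinj (show χ 1 • v = (1 : K) • v by rw [← hχ, one_smul]; simp [hTdef])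
  let χh : A →* K := { toFun := χ, map_one' := hχ1, map_mul' := hχmul }
  obtain ⟨k, hk⟩ := hP c
  set c' : A := ⟨c, hcA⟩
  have hc'pow : c' ^ p ^ k = 1 := Subtype.ext hk
  have hχc : χ c' ≠ 1 := by
    intro h
    obtain ⟨w, hw⟩ := hvU
    have h1 : ρ c v = v := by have := hχ c'; rwa [h, one_smul] at this
    have key : ∀ j : ℕ, ρ (c ^ j) w = w + (j : K) • v := by
      intro j
      induction j with
      | zero => simp
      | succ j ihj =>
        have h2 : ρ c w = w + v := by
          rw [← hw, LinearMap.sub_apply, Module.End.one_apply, add_sub_cancel]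
        rw [pow_succ', hmul, ihj, map_add, map_smul, h1, h2, Nat.cast_succ, add_smul, one_smul]
        abel
    have h3 := key (p ^ k)
    rw [hk, map_one, Module.End.one_apply, left_eq_add, Nat.cast_pow] at h3
    exact (smul_eq_zero.mp h3).elim (pow_ne_zero k hpK) hv0
  -- a value of order `p`
  obtain ⟨a0, hζ⟩ : ∃ a0 : A, orderOf (χ a0) = p := by
    have hord : orderOf (χ c') ∣ p ^ k :=
      orderOf_dvd_of_pow_eq_one (by rw [show χ c' = χh c' from rfl, ← map_pow, hc'pow, map_one])
    obtain ⟨t, -, ht⟩ := (Nat.dvd_prime_pow hp.out).mp hord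
    have ht0 : t ≠ 0 := fun h => hχc (orderOf_eq_one_iff.mp (by rw [ht, h, pow_zero]))
    refine ⟨c' ^ p ^ (t - 1), ?_⟩
    rw [show χ (c' ^ p ^ (t - 1)) = χ c' ^ p ^ (t - 1) from map_pow χh c' _,
      orderOf_pow_of_dvd (pow_ne_zero _ hp.out.ne_zero) (ht ▸ Nat.pow_dvd_pow p (Nat.sub_le t 1)), ht,
      Nat.pow_div (Nat.sub_le t 1) hp.out.pos, show t - (t - 1) = 1 by omega, pow_one]
  -- the twisted vectors
  have hqp' : (q : ZMod p) ≠ 0 := fun h => hqp
    ((Nat.prime_dvd_prime_iff_eq hp.out hq.out).mp ((CharP.cast_eq_zero_iff (ZMod p) p q).mp h)).symm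
  set d0 := orderOf (q : ZMod p)
  have hd0 : 0 < d0 := orderOf_pos_iff.mpr (isOfFinOrder_iff_pow_eq_one.mpr
    ⟨p - 1, by have := hp.out.two_le; omega, ZMod.pow_card_sub_one_eq_one hqp'⟩)
  let F : ℕ → (Fin D → K) → (Fin D → K) := fun i x t => x t ^ q ^ i
  have hFcomm : ∀ (g : P) i x, ρ g (F i x) = F i (ρ g x) := fun g i x => funext fun t => by
    simp only [F, hρapply]
    rw [sum_pow_char_pow]
    refine Finset.sum_congr rfl fun l _ => ?_
    rw [mul_pow, ← map_pow, ZMod.pow_card_pow]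
  let w : ℕ × ℕ → (Fin D → K) := fun ij => F ij.1 (ρ (z ^ ij.2) v)
  let ψ : ℕ × ℕ → A → K := fun ij b =>
    χ ⟨(z ^ ij.2)⁻¹ * (b : P) * z ^ ij.2, by simpa using hAn.conj_mem _ b.2 (z ^ ij.2)⁻¹⟩ ^ q ^ ij.1
  have hwψ : ∀ ij b, T b (w ij) = ψ ij b • w ij := by
    intro ij b
    set b' : A := ⟨(z ^ ij.2)⁻¹ * (b : P) * z ^ ij.2, by simpa using hAn.conj_mem _ b.2 (z ^ ij.2)⁻¹⟩
    have h1 : ρ (b : P) (ρ (z ^ ij.2) v) = χ b' • ρ (z ^ ij.2) v := by
      rw [← map_smul, ← hχ b', ← hmul, ← hmul]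
      congr 1
      simp only [b', hTdef]
      rw [← mul_assoc, ← mul_assoc, mul_inv_cancel, one_mul]
    simp only [hTdef, w, hFcomm, h1]
    funext t
    simp only [F, ψ, Pi.smul_apply, smul_eq_mul, mul_pow]
    rfl
  have hw0 : ∀ ij, w ij ≠ 0 := fun ij h => hv0 (by
    have h1 : ρ (z ^ ij.2) v = 0 := funext fun t => eq_zero_of_pow_eq_zero (congrFun h t)
    rw [show v = ρ (z ^ ij.2)⁻¹ (ρ (z ^ ij.2) v) by rw [← hmul, inv_mul_cancel, map_one]; rfl, h1, map_zero])
  have hdist : ∀ i i' j j', i' ≤ i → i < d0 → j < N → j' < N → ψ (i, j) = ψ (i', j') → i = i' ∧ j = j' := by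
    intro i i' j j' hii hi hj hj' h
    set g := (z ^ j')⁻¹ * z ^ j with hg
    have hgA : ∀ b : A, g * (b : P) * g⁻¹ ∈ A := fun b => hAn.conj_mem _ b.2 g
    have hstep : ∀ b : A, χ b ^ q ^ (i - i') = χ ⟨g * (b : P) * g⁻¹, hgA b⟩ := by
      intro b
      have h1 := congrFun h ⟨z ^ j * (b : P) * (z ^ j)⁻¹, hAn.conj_mem _ b.2 _⟩
      simp only [ψ] at h1
      have e1 : ((z ^ j)⁻¹ * (z ^ j * (b : P) * (z ^ j)⁻¹) * z ^ j) = b := by group
      have e2 : ((z ^ j')⁻¹ * (z ^ j * (b : P) * (z ^ j)⁻¹) * z ^ j') = g * (b : P) * g⁻¹ := by rw [hg]; group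
      simp only [e1, e2, Subtype.coe_eta] at h1
      refine iterateFrobenius_inj K q i' ?_
      simp only [iterateFrobenius_def]
      rw [← pow_mul, ← pow_add, Nat.sub_add_cancel hii]
      exact h1
    have hit : ∀ (l : ℕ) (b : A), χ b ^ q ^ ((i - i') * l) =
        χ ⟨g ^ l * (b : P) * (g ^ l)⁻¹, hAn.conj_mem _ b.2 _⟩ := by
      intro l
      induction l with
      | zero => intro b; simp
      | succ l ihl =>
        intro b
        rw [Nat.mul_succ, pow_add, pow_mul, ihl, hstep]
        congr 1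
        refine Subtype.ext ?_
        show g * (g ^ l * (b : P) * (g ^ l)⁻¹) * g⁻¹ = _
        rw [pow_succ']
        group
    have hgN : g ^ N = 1 := by
      rw [hg, (((Commute.refl z).pow_pow j' j).inv_left).mul_pow, inv_pow, ← pow_mul, ← pow_mul, mul_comm j' N,
        mul_comm j N, pow_mul, pow_mul, hz, one_pow, one_pow, inv_one, one_mul]
    have hii' : i - i' = 0 := by
      have h1 := hit N a0
      simp only [hgN, one_mul, inv_one, mul_one, Subtype.coe_eta] at h1
      conv_rhs at h1 => rw [← pow_one (χ a0)]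
      have h2 : IsOfFinOrder (χ a0) := orderOf_pos_iff.mp (by rw [hζ]; exact hp.out.pos)
      have h3 := h2.pow_eq_pow_iff_modEq.mp h1
      rw [hζ] at h3
      rw [← ZMod.natCast_eq_natCast_iff, Nat.cast_pow, Nat.cast_one, pow_mul, ZMod.pow_card_pow] at h3
      exact Nat.eq_zero_of_dvd_of_lt (orderOf_dvd_of_pow_eq_one h3) (by omega)
    refine ⟨by omega, ?_⟩
    by_contra hjj
    obtain ⟨e, he0, heN, hge⟩ : ∃ e, 0 < e ∧ e < N ∧ g = z ^ e := by
      rcases Nat.lt_or_gt_of_ne hjj with hlt | hlt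
      · refine ⟨N - (j' - j), by omega, by omega, ?_⟩
        rw [hg, inv_mul_eq_iff_eq_mul, ← pow_add, show j' + (N - (j' - j)) = N + j by omega, pow_add, hz, one_mul]
      · refine ⟨j - j', by omega, by omega, ?_⟩
        rw [hg, inv_mul_eq_iff_eq_mul, ← pow_add, Nat.add_sub_cancel' hlt.le]
    obtain ⟨b, hbm, hb⟩ := (Nat.dvd_prime_pow hp.out).mp (Nat.gcd_dvd_right e N)
    have hbm' : b ≤ m - 1 := by
      by_contra hlt
      have hbm2 : b = m := by omega
      have := Nat.le_of_dvd he0 (show N ∣ e by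
        have := Nat.gcd_dvd_left e N
        rwa [hb, hbm2] at this)
      omega
    have hyg : y ∈ Subgroup.zpowers g := by
      have h1 : z ^ Nat.gcd e N ∈ Subgroup.zpowers g := by
        rw [← zpow_natCast, Nat.gcd_eq_gcd_ab, zpow_add, zpow_mul, zpow_mul, zpow_natCast, zpow_natCast, hz,
          one_zpow, mul_one, ← hge]
        exact Subgroup.zpow_mem _ (Subgroup.mem_zpowers g) _
      rw [hy, ← Nat.add_sub_cancel' hbm', pow_add, pow_mul, ← hb]
      exact Subgroup.pow_mem _ h1 _
    rw [← mem_powers_iff_mem_zpowers] at hyg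
    obtain ⟨l, hl⟩ := hyg
    simp only at hl
    have h4 := hit l ⟨a, ha⟩
    simp only [hii', zero_mul, pow_zero, pow_one, hl] at h4
    apply hχc
    have h5 : c' = ⟨y * a * y⁻¹, hAn.conj_mem _ ha y⟩ * ⟨a, ha⟩⁻¹ := Subtype.ext (commutatorElement_def y a)
    rw [h5, hχmul, ← h4, ← hχmul, mul_inv_cancel, hχ1]
  -- enough vectors in the range
  set s := p ^ (m - 1)
  set E := (p - 1) * s
  have hNsE : N = s + E := by
    have : N = p * s := by simp only [N, s, ← pow_succ']; congr 1; omega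
    rw [this]
    obtain ⟨p', hp'⟩ := Nat.exists_eq_add_of_le hp.out.one_le
    simp only [E, hp', Nat.add_sub_cancel_left]; ring
  let dvec : Fin d0 × Fin E → (Fin D → K) := fun ij => w (ij.1, (ij.2 : ℕ) + s) - w (ij.1, (ij.2 : ℕ))
  have hli : LinearIndependent K dvec := by
    rw [Fintype.linearIndependent_iff]
    intro cf hcf
    let C : Fin d0 → ℕ → K := fun i j => if h : j < E then cf (i, ⟨j, h⟩) else 0
    let C' : Fin d0 → ℕ → K := fun i j => if s ≤ j then C i (j - s) else 0
    have hsum : ∑ ij : Fin d0 × Fin N, (C' ij.1 ij.2 - C ij.1 ij.2) • w (ij.1, (ij.2 : ℕ)) = 0 := by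
      rw [← hcf, Fintype.sum_prod_type, Fintype.sum_prod_type]
      refine Finset.sum_congr rfl fun i _ => ?_
      have hr : ∀ j : Fin E, cf (i, j) • dvec (i, j) =
          C i j • w ((i : ℕ), (j : ℕ) + s) - C i j • w ((i : ℕ), (j : ℕ)) := fun j => by
        simp [C, dvec, smul_sub]
      rw [Finset.sum_congr rfl fun j _ => hr j, Finset.sum_sub_distrib,
        Fin.sum_univ_eq_sum_range (fun j => (C' i j - C i j) • w ((i : ℕ), j)),
        Fin.sum_univ_eq_sum_range (fun j => C i j • w ((i : ℕ), j + s)),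
        Fin.sum_univ_eq_sum_range (fun j => C i j • w ((i : ℕ), j))]
      simp only [sub_smul, Finset.sum_sub_distrib]
      congr 1
      · rw [hNsE, Finset.sum_range_add, Finset.sum_eq_zero, zero_add]
        · refine Finset.sum_congr rfl fun j _ => ?_
          simp only [C', add_comm s j, Nat.le_add_left, if_true, Nat.add_sub_cancel]
        · intro j hj
          rw [Finset.mem_range] at hj
          simp [C', not_le.mpr hj]
      · refine (Finset.sum_subset (fun j hj => ?_) fun j _ hj => ?_).symm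
        · rw [Finset.mem_range] at hj ⊢; omega
        · rw [Finset.mem_range] at hj
          simp [C, hj]
    have hz0 := eq_zero_of_sum_weights T (fun ij : Fin d0 × Fin N => ψ ((ij.1 : ℕ), (ij.2 : ℕ))) Finset.univ (by
      rintro ⟨i, j⟩ - ⟨i', j'⟩ - h
      rcases le_total (i' : ℕ) i with hle | hle
      · obtain ⟨h1, h2⟩ := hdist i i' j j' hle i.2 j.2 j'.2 h
        exact Prod.ext (Fin.ext h1) (Fin.ext h2)
      · obtain ⟨h1, h2⟩ := hdist i' i j' j hle i'.2 j'.2 j.2 h.symm
        exact Prod.ext (Fin.ext h1.symm) (Fin.ext h2.symm))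
      (fun ij => (C' ij.1 ij.2 - C ij.1 ij.2) • w ((ij.1 : ℕ), (ij.2 : ℕ)))
      (fun ij _ b => by rw [map_smul, hwψ, smul_comm]) hsum
    have hC : ∀ i j, C i j = 0 := by
      intro i j
      induction j using Nat.strong_induction_on with
      | _ j ihj =>
        rcases Nat.lt_or_ge j N with hjN | hjN
        · have h1 := hz0 (i, ⟨j, hjN⟩) (Finset.mem_univ _)
          rw [smul_eq_zero, sub_eq_zero] at h1
          rw [← h1.resolve_right (hw0 _)]
          simp only [C']
          split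
          · exact ihj _ (by have := Nat.pow_pos (n := m - 1) hp.out.pos; omega)
          · rfl
        · simp only [C]; rw [dif_neg (by omega)]
    rintro ⟨i, j⟩
    have := hC i j
    simpa [C] using this
  have hmem : ∀ ij, dvec ij ∈ LinearMap.range (ρ y - 1) := by
    intro ij
    refine ⟨w ((ij.1 : ℕ), (ij.2 : ℕ)), ?_⟩
    simp only [dvec, w, LinearMap.sub_apply, Module.End.one_apply, hFcomm, ← hmul]
    rw [hy, ← pow_add, add_comm]
  -- the range over the prime field
  set R := LinearMap.range (Matrix.toLin' (M y - 1))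
  set bR := Module.finBasis (ZMod q) R
  let e : Fin (Module.finrank (ZMod q) R) → (Fin D → K) := fun l t => ι ((bR l : Fin D → ZMod q) t)
  have hspan : ∀ x, x ∈ R → (fun t => ι (x t)) ∈ Submodule.span K (Set.range e) := by
    intro x hx
    have h1 : (fun t => ι (x t)) = ∑ l, ι (bR.repr ⟨x, hx⟩ l) • e l := by
      funext t
      have h2 := congrArg (fun r : R => (r : Fin D → ZMod q) t) (bR.sum_repr ⟨x, hx⟩)
      simp only [Submodule.coe_sum, Submodule.coe_smul, Finset.sum_apply, Pi.smul_apply, smul_eq_mul] at h2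
      simp only [Finset.sum_apply, Pi.smul_apply, smul_eq_mul, e, ← map_mul, ← map_sum, h2]
    rw [h1]
    exact Submodule.sum_mem _ fun l _ => Submodule.smul_mem _ _ (Submodule.subset_span ⟨l, rfl⟩)
  have hle : LinearMap.range (ρ y - 1) ≤ Submodule.span K (Set.range e) := by
    rintro _ ⟨x, rfl⟩
    rw [pi_eq_sum_univ x, map_sum]
    refine Submodule.sum_mem _ fun l _ => ?_
    rw [map_smul]
    refine Submodule.smul_mem _ _ ?_
    convert hspan _ (LinearMap.mem_range_self (Matrix.toLin' (M y - 1)) (Pi.single l 1)) using 1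
    funext t
    simp only [LinearMap.sub_apply, Module.End.one_apply, Pi.sub_apply, hρapply, Matrix.toLin'_apply,
      Matrix.mulVec_single_one, Matrix.col_apply, Matrix.sub_apply, map_sub, Matrix.one_apply]
    simp [Pi.single_apply, eq_comm]
  have hcount : d0 * E ≤ Module.finrank (ZMod q) R := by
    have h1 : LinearIndependent K fun ij => (⟨dvec ij, hle (hmem ij)⟩ : Submodule.span K (Set.range e)) :=
      LinearIndependent.of_comp (Submodule.subtype _) hli
    have h2 := h1.fintype_card_le_finrank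
    have h3 := finrank_range_le_card (R := K) e
    rw [Fintype.card_prod, Fintype.card_fin, Fintype.card_fin] at h2
    rw [Fintype.card_fin] at h3
    exact h2.trans h3
  have hR : Nat.card R = q ^ Module.finrank (ZMod q) R := by
    rw [Module.natCard_eq_pow_finrank (K := ZMod q), Nat.card_zmod]
  have hq1 : p + 1 ≤ q ^ d0 := by
    have h1 : q ^ d0 ≡ 1 [MOD p] := by
      rw [← ZMod.natCast_eq_natCast_iff, Nat.cast_pow, Nat.cast_one]; exact pow_orderOf_eq_one _
    have h2 : 1 < q ^ d0 := Nat.one_lt_pow hd0.ne' hq.out.one_lt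
    have := Nat.le_of_dvd (by omega) ((Nat.modEq_iff_dvd' h2.le).mp h1.symm)
    omega
  have hE : 2 * m ≤ E := by
    refine le_trans ?_ (Nat.mul_le_mul_right s (show 2 ≤ p - 1 by have := hp.out.two_le; omega))
    have := Nat.lt_pow_self (n := m - 1) hp.out.one_lt
    omega
  have hbig : (p ^ m - 1) ^ 2 < q ^ Module.finrank (ZMod q) R :=
    calc (p ^ m - 1) ^ 2 < (p ^ m) ^ 2 :=
          Nat.pow_lt_pow_left (by have := Nat.one_le_pow m p hp.out.pos; omega) two_ne_zero
      _ = p ^ (2 * m) := by rw [← pow_mul, mul_comm]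
      _ ≤ p ^ E := Nat.pow_le_pow_right hp.out.pos hE
      _ ≤ (p + 1) ^ E := Nat.pow_le_pow_left (Nat.le_succ p) E
      _ ≤ (q ^ d0) ^ E := Nat.pow_le_pow_left hq1 E
      _ ≤ _ := by rw [← pow_mul]; exact Nat.pow_le_pow_right hq.out.pos hcount
  rw [← hR] at hbig
  exact absurd hrange (not_le.mpr hbig)

/-- Two roots with small support in a finite `p`-group acting over another prime field commute. -/
theorem commute_of_small_range {p q : ℕ} [hp : Fact p.Prime] [hq : Fact q.Prime] (hp2 : p ≠ 2) (hqp : q ≠ p)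
    {P : Type*} [Group P] [Finite P] (hP : IsPGroup p P) {V : Type*} [AddCommGroup V] [Module (ZMod q) V]
    [FiniteDimensional (ZMod q) V] (φ : P →* Module.End (ZMod q) V) (z z' : P) {m m' : ℕ}
    (hm : m ≠ 0) (hz : z ^ p ^ m = 1)
    (hr : Nat.card (LinearMap.range (φ (z ^ p ^ (m - 1)) - 1)) ≤ (p ^ m - 1) ^ 2)
    (hm' : m' ≠ 0) (hz' : z' ^ p ^ m' = 1)
    (hr' : Nat.card (LinearMap.range (φ (z' ^ p ^ (m' - 1)) - 1)) ≤ (p ^ m' - 1) ^ 2) :
    φ (z ^ p ^ (m - 1)) * φ (z' ^ p ^ (m' - 1)) = φ (z' ^ p ^ (m' - 1)) * φ (z ^ p ^ (m - 1)) := by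
  classical
  let b := Module.finBasis (ZMod q) V
  let φu : P →* (Module.End (ZMod q) V)ˣ := φ.toHomUnits
  let M : P ⧸ φu.ker →* Matrix (Fin (Module.finrank (ZMod q) V)) (Fin (Module.finrank (ZMod q) V)) (ZMod q) :=
    { toFun := fun g => LinearMap.toMatrix b b ((QuotientGroup.kerLift φu g : (Module.End (ZMod q) V)ˣ) : Module.End (ZMod q) V)
      map_one' := by rw [map_one, Units.val_one]; exact LinearMap.toMatrix_one b
      map_mul' := fun g h => by rw [map_mul, Units.val_mul]; exact LinearMap.toMatrix_mul b _ _ }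
  have hM : Function.Injective M :=
    (LinearMap.toMatrix b b).injective.comp (Units.val_injective.comp (QuotientGroup.kerLift_injective φu))
  have hP' : IsPGroup p (P ⧸ φu.ker) := hP.to_quotient _
  obtain ⟨A, -, hAn, hAab, hAc⟩ :=
    OddLocal.exists_selfCentralizing_normal hP' (⊥ : Subgroup (P ⧸ φu.ker)) ⟨⟨fun x y => Subsingleton.elim _ _⟩⟩
  have hcard : ∀ g : P, Nat.card (LinearMap.range (Matrix.toLin' (M (g : P ⧸ φu.ker) - 1))) =
      Nat.card (LinearMap.range (φ g - 1)) := by
    intro g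
    have he : Matrix.toLin' (M (g : P ⧸ φu.ker) - 1) ∘ₗ (b.equivFun : V →ₗ[ZMod q] _) =
        (b.equivFun : V →ₗ[ZMod q] _) ∘ₗ (φ g - 1) := by
      refine LinearMap.ext fun x => ?_
      simp only [LinearMap.comp_apply, LinearEquiv.coe_coe, map_sub, Matrix.toLin'_one, LinearMap.sub_apply,
        LinearMap.id_apply, Module.End.one_apply, Matrix.toLin'_apply]
      congr 1
      exact LinearMap.toMatrix_mulVec_repr b b (φ g) x
    have h1 : LinearMap.range (Matrix.toLin' (M (g : P ⧸ φu.ker) - 1)) =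
        (LinearMap.range (φ g - 1)).map (b.equivFun : V →ₗ[ZMod q] _) := by
      rw [← LinearMap.range_comp, ← he, LinearMap.range_comp, LinearEquiv.range, Submodule.map_top]
    rw [h1]
    exact (Nat.card_congr (b.equivFun.submoduleMap _).toEquiv).symm
  have hin : ∀ (g : P) (l : ℕ), l ≠ 0 → g ^ p ^ l = 1 →
      Nat.card (LinearMap.range (φ (g ^ p ^ (l - 1)) - 1)) ≤ (p ^ l - 1) ^ 2 →
      ((g ^ p ^ (l - 1) : P) : P ⧸ φu.ker) ∈ A := by
    intro g l hl hg hgr
    rw [← hAc, Subgroup.mem_centralizer_iff]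
    intro a ha
    rw [QuotientGroup.mk_pow]
    refine (mul_comm_of_small_range hp2 hqp hP' M hM A (fun x hx y hy => ?_) (g : P ⧸ φu.ker) hl ?_ ?_ a ha).symm
    · exact congrArg Subtype.val (hAab.is_comm.comm ⟨x, hx⟩ ⟨y, hy⟩)
    · rw [← QuotientGroup.mk_pow, hg, QuotientGroup.mk_one]
    · rw [← QuotientGroup.mk_pow, hcard]; exact hgr
  have h := congrArg Subtype.val (hAab.is_comm.comm ⟨_, hin z m hm hz hr⟩ ⟨_, hin z' m' hm' hz' hr'⟩)
  have h2 := congrArg (fun g => ((QuotientGroup.kerLift φu g : (Module.End (ZMod q) V)ˣ) : Module.End (ZMod q) V)) h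
  simpa [φu] using h2

end Cfsg.Agent.Lib.HallHigman
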