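import Cfsg.Agent.Lib.HallHigman.CentralizerBound
import Cfsg.Agent.Lib.HallHigman.SmallSupport
import Cfsg.Agent.Lib.HallHigman.Faithful

set_option autoImplicit false

/-!
Commutators of exceptional roots of a `p`-group normalising a `q`-group act trivially on the `q`-group.
-/

namespace Cfsg.Agent.Lib.HallHigman

open scoped commutatorElement

universe u v w

variable {K : Type w} {G : Type u} {V : Type v} [Field K] [Group G] [AddCommGroup V] [Module K V]

/-- `y` is the element of order `p` below an element with exceptional minimal polynomial. -/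
def IsRoot (p : ℕ) (ρ : G →* Module.End K V) (P : Subgroup G) (y : G) : Prop :=
  ∃ z ∈ P, ∃ m : ℕ, m ≠ 0 ∧ z ^ p ^ m = 1 ∧ (ρ z - 1) ^ (p ^ m - 1) = 0 ∧ y = z ^ p ^ (m - 1)

theorem IsRoot.mem {p : ℕ} {ρ : G →* Module.End K V} {P : Subgroup G} {y : G} (h : IsRoot p ρ P y) : y ∈ P := by
  obtain ⟨z, hz, m, -, -, -, rfl⟩ := h
  exact Subgroup.pow_mem _ hz _

theorem IsRoot.conj {p : ℕ} {ρ : G →* Module.End K V} {P : Subgroup G} {y g : G} (h : IsRoot p ρ P y)
    (hg : g ∈ P) : IsRoot p ρ P (g * y * g⁻¹) := by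
  obtain ⟨z, hz, m, hm, hzm, hr, rfl⟩ := h
  refine ⟨g * z * g⁻¹, P.mul_mem (P.mul_mem hg hz) (P.inv_mem hg), m, hm, ?_, ?_, conj_pow.symm⟩
  · rw [conj_pow, hzm, mul_one, mul_inv_cancel]
  · have h1 : ρ (g * z * g⁻¹) - 1 = ρ g * (ρ z - 1) * ρ g⁻¹ := by
      rw [map_mul, map_mul, mul_sub, mul_one, sub_mul, ← map_mul ρ g g⁻¹, mul_inv_cancel, map_one]
    have h2 : ∀ j : ℕ, (ρ g * (ρ z - 1) * ρ g⁻¹) ^ j = ρ g * (ρ z - 1) ^ j * ρ g⁻¹ := by
      intro j
      induction j with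
      | zero => rw [pow_zero, pow_zero, mul_one, ← map_mul, mul_inv_cancel, map_one]
      | succ j ih =>
        rw [pow_succ, ih, pow_succ]
        simp only [mul_assoc, rho_cancel]
    rw [h1, h2, hr, mul_zero, zero_mul]

theorem commutator_fix_aux [IsAlgClosed K] {p q : ℕ} [hp : Fact p.Prime] [hq : Fact q.Prime] [CharP K p]
    (hp2 : p ≠ 2) (hqp : q ≠ p) (M : ℕ) :
    ∀ (G : Type u) [Group G] (V : Type v) [AddCommGroup V] [Module K V] [FiniteDimensional K V]
      [Finite G] (ρ : G →* Module.End K V) (P Q : Subgroup G) (y y' : G),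
      Module.finrank K V + Nat.card Q = M → IsPGroup p P → IsPGroup q Q →
      P ≤ Subgroup.normalizer (Q : Set G) → IsRoot p ρ P y → IsRoot p ρ P y' →
      ∀ t ∈ Q, ρ (⁅y, y'⁆ * t * ⁅y, y'⁆⁻¹) = ρ t := by
  induction M using Nat.strong_induction_on with
  | _ M ih =>
  intro G _ V _ _ _ _ ρ P Q y₁ y₂ hM hP hQ hPQ hy₁ hy₂ t₁ ht₁
  classical
  by_contra hbad
  have hqK : (q : K) ≠ 0 := fun h => hqp
    ((Nat.prime_dvd_prime_iff_eq hp.out hq.out).mp ((CharP.cast_eq_zero_iff K p q).mp h)).symm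
  let Rt : G → Prop := fun c => ∃ y y', IsRoot p ρ P y ∧ IsRoot p ρ P y' ∧ c = ⁅y, y'⁆
  have hRtP : ∀ c, Rt c → c ∈ P := by
    rintro c ⟨y, y', hy, hy', rfl⟩
    rw [commutatorElement_def]
    exact P.mul_mem (P.mul_mem (P.mul_mem hy.mem hy'.mem) (P.inv_mem hy.mem)) (P.inv_mem hy'.mem)
  have hRtconj : ∀ c, Rt c → ∀ g ∈ P, Rt (g * c * g⁻¹) := by
    rintro c ⟨y, y', hy, hy', rfl⟩ g hg
    exact ⟨g * y * g⁻¹, g * y' * g⁻¹, hy.conj hg, hy'.conj hg, by simp only [commutatorElement_def]; group⟩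
  have hRt₀ : Rt ⁅y₁, y₂⁆ := ⟨y₁, y₂, hy₁, hy₂, rfl⟩
  have hconjQ : ∀ g ∈ P, ∀ t ∈ Q, g * t * g⁻¹ ∈ Q := fun g hg t ht =>
    (Subgroup.mem_normalizer_iff.mp (hPQ hg) t).mp ht
  -- smaller invariant subgroups
  have hsmall : ∀ Q' : Subgroup G, Q' < Q → P ≤ Subgroup.normalizer (Q' : Set G) → ∀ c, Rt c → ∀ t ∈ Q',
      ρ (c * t * c⁻¹) = ρ t := by
    rintro Q' hlt hPQ' c ⟨y, y', hy, hy', rfl⟩ t ht
    haveI : Finite Q' := Finite.of_injective _ (Subgroup.inclusion_injective hlt.le)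
    have hcard : Nat.card Q' < Nat.card Q := by
      refine lt_of_le_of_ne (Nat.le_of_dvd Nat.card_pos (Subgroup.card_dvd_of_le hlt.le)) fun he => hlt.ne ?_
      exact Subgroup.eq_of_le_of_card_ge hlt.le he.ge
    exact ih _ (by omega : Module.finrank K V + Nat.card Q' < M) G V ρ P Q' y y' rfl hP (hQ.to_le hlt.le) hPQ'
      hy hy' t ht
  -- invariant pieces
  have hlocal : ∀ W : Submodule K V, Inv ρ Q W → Module.finrank K W < Module.finrank K V → ∀ y y',
      (∃ z ∈ P, z ∈ stab ρ W ∧ ∃ m : ℕ, m ≠ 0 ∧ z ^ p ^ m = 1 ∧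
        (∀ w ∈ W, ((ρ z - 1) ^ (p ^ m - 1)) w = 0) ∧ y = z ^ p ^ (m - 1)) →
      (∃ z ∈ P, z ∈ stab ρ W ∧ ∃ m : ℕ, m ≠ 0 ∧ z ^ p ^ m = 1 ∧
        (∀ w ∈ W, ((ρ z - 1) ^ (p ^ m - 1)) w = 0) ∧ y' = z ^ p ^ (m - 1)) →
      ∀ t ∈ Q, ∀ w ∈ W, ρ (⁅y, y'⁆ * t * ⁅y, y'⁆⁻¹) w = ρ t w := by
    rintro W hW hlt y y' ⟨z, hz, hzW, m, hm, hzm, hr, rfl⟩ ⟨z', hz', hzW', m', hm', hzm', hr', rfl⟩ t ht w hw
    set H := stab ρ W
    have hQH : Q ≤ H := inv_iff_le_stab.mp hW
    have hInv : Inv ρ H W := fun g hg v hv => apply_mem_of_mem_stab hg hv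
    haveI : Finite (Q.subgroupOf H) := Finite.of_equiv Q (Subgroup.subgroupOfEquivOfLe hQH).toEquiv.symm
    haveI : Finite (P.subgroupOf H) := Finite.of_injective (fun a => (⟨(a : H), a.2⟩ : P)) fun a b h =>
      Subtype.ext (Subtype.ext (congrArg (fun x : P => (x : G)) h))
    have hcard : Nat.card (Q.subgroupOf H) = Nat.card Q := Coprime.card_subgroupOf hQH
    have hP' : IsPGroup p (P.subgroupOf H) := fun a => by
      obtain ⟨k, hk⟩ := hP ⟨(a : H), a.2⟩
      exact ⟨k, Subtype.ext (Subtype.ext (congrArg (fun x : P => (x : G)) hk))⟩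
    have hPQ' : P.subgroupOf H ≤ Subgroup.normalizer ((Q.subgroupOf H) : Set H) := fun a ha => by
      rw [Subgroup.mem_normalizer_iff]
      exact fun h => Subgroup.mem_normalizer_iff.mp (hPQ ha) (h : G)
    have h1 := ih _ (by omega : Module.finrank K W + Nat.card (Q.subgroupOf H) < M) H W (restr ρ H W hInv)
      (P.subgroupOf H) (Q.subgroupOf H) ((⟨z, hzW⟩ : H) ^ p ^ (m - 1)) ((⟨z', hzW'⟩ : H) ^ p ^ (m' - 1)) rfl hP'
      (hQ.of_equiv (Subgroup.subgroupOfEquivOfLe hQH).symm) hPQ'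
      ⟨⟨z, hzW⟩, hz, m, hm, Subtype.ext hzm,
        LinearMap.ext fun w => Subtype.ext (by rw [rho_pow_sub_one_restr]; exact hr w w.2), rfl⟩
      ⟨⟨z', hzW'⟩, hz', m', hm', Subtype.ext hzm',
        LinearMap.ext fun w => Subtype.ext (by rw [rho_pow_sub_one_restr]; exact hr' w w.2), rfl⟩
      ⟨t, hQH ht⟩ ht
    have h2 := congrArg Subtype.val (LinearMap.congr_fun h1 ⟨w, hw⟩)
    simp only [restr_coe, Subgroup.coe_mul, InvMemClass.coe_inv] at h2
    rwa [show ((⁅(⟨z, hzW⟩ : H) ^ p ^ (m - 1), (⟨z', hzW'⟩ : H) ^ p ^ (m' - 1)⁆ : H) : G) =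
      ⁅z ^ p ^ (m - 1), z' ^ p ^ (m' - 1)⁆ from map_commutatorElement H.subtype _ _] at h2
  haveI hV : Nontrivial V := by
    by_contra h
    rw [not_nontrivial_iff_subsingleton] at h
    exact hbad (LinearMap.ext fun v => Subsingleton.elim _ _)
  have hirr : ∀ W : Submodule K V, Inv ρ Q W → Inv ρ P W → W = ⊥ ∨ W = ⊤ := by
    intro W hW hWP
    by_contra hcon
    obtain ⟨hb, ht⟩ := not_or.mp hcon
    apply hbad
    set H := stab ρ W
    have hQH : Q ≤ H := inv_iff_le_stab.mp hW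
    have hPH : P ≤ H := inv_iff_le_stab.mp hWP
    have hroot : ∀ y, IsRoot p ρ P y → ∃ z ∈ P, z ∈ H ∧ ∃ m : ℕ, m ≠ 0 ∧ z ^ p ^ m = 1 ∧
        (∀ w ∈ W, ((ρ z - 1) ^ (p ^ m - 1)) w = 0) ∧ y = z ^ p ^ (m - 1) := by
      rintro y ⟨z, hz, m, hm, hzm, hr, hy⟩
      exact ⟨z, hz, hPH hz, m, hm, hzm, fun w _ => by rw [hr, LinearMap.zero_apply], hy⟩
    have hlt1 : Module.finrank K W < Module.finrank K V := Submodule.finrank_lt ht
    have hlt2 : Module.finrank K (V ⧸ W) < Module.finrank K V := by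
      have h1 := Submodule.finrank_quotient_add_finrank W
      have : 0 < Module.finrank K W := by
        rw [Nat.pos_iff_ne_zero, Ne, Submodule.finrank_eq_zero]; exact hb
      omega
    set c := ⁅y₁, y₂⁆ with hc
    have hcP : c ∈ P := hRtP c hRt₀
    set d := t₁⁻¹ * (c * t₁ * c⁻¹) with hd
    have hdQ : d ∈ Q := Q.mul_mem (Q.inv_mem ht₁) (hconjQ c hcP t₁ ht₁)
    have hA1 : ∀ w ∈ W, ρ d w = w := fun w hw => by
      rw [hd, rho_mul, hlocal W hW hlt1 y₁ y₂ (hroot y₁ hy₁) (hroot y₂ hy₂) t₁ ht₁ w hw, rho_inv_apply]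
    have hInv : Inv ρ H W := fun g hg v hv => apply_mem_of_mem_stab hg hv
    haveI : Finite (Q.subgroupOf H) := Finite.of_equiv Q (Subgroup.subgroupOfEquivOfLe hQH).toEquiv.symm
    haveI : Finite (P.subgroupOf H) := Finite.of_equiv P (Subgroup.subgroupOfEquivOfLe hPH).toEquiv.symm
    have hrootq : ∀ y (hy : IsRoot p ρ P y), IsRoot p (quot ρ H W hInv) (P.subgroupOf H) ⟨y, hPH hy.mem⟩ := by
      rintro y hy
      obtain ⟨z, hz, m, hm, hzm, hr, rfl⟩ := id hy
      refine ⟨⟨z, hPH hz⟩, hz, m, hm, Subtype.ext hzm, LinearMap.ext fun v => ?_, rfl⟩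
      obtain ⟨v, rfl⟩ := Submodule.Quotient.mk_surjective W v
      rw [rho_pow_sub_one_quot, hr]
      rfl
    have hcard : Nat.card (Q.subgroupOf H) = Nat.card Q := Coprime.card_subgroupOf hQH
    have hA2 : ∀ v, ρ d v - v ∈ W := by
      intro v
      have h1 := ih _ (by omega : Module.finrank K (V ⧸ W) + Nat.card (Q.subgroupOf H) < M) H (V ⧸ W)
        (quot ρ H W hInv) (P.subgroupOf H) (Q.subgroupOf H) ⟨y₁, hPH hy₁.mem⟩ ⟨y₂, hPH hy₂.mem⟩ rfl
        (hP.of_equiv (Subgroup.subgroupOfEquivOfLe hPH).symm) (hQ.of_equiv (Subgroup.subgroupOfEquivOfLe hQH).symm)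
        (fun a ha => by
          rw [Subgroup.mem_normalizer_iff]
          exact fun h => Subgroup.mem_normalizer_iff.mp (hPQ ha) (h : G))
        (hrootq y₁ hy₁) (hrootq y₂ hy₂) ⟨t₁, hQH ht₁⟩ ht₁
      have h2 := LinearMap.congr_fun h1 (Submodule.Quotient.mk v)
      rw [quot_mk, quot_mk, Submodule.Quotient.eq] at h2
      simp only [Subgroup.coe_mul, InvMemClass.coe_inv] at h2
      rw [show ((⁅(⟨y₁, hPH hy₁.mem⟩ : H), (⟨y₂, hPH hy₂.mem⟩ : H)⁆ : H) : G) = c from
        map_commutatorElement H.subtype _ _] at h2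
      have h3 := hW t₁⁻¹ (Q.inv_mem ht₁) _ h2
      rw [map_sub, rho_inv_apply] at h3
      rw [hd, rho_mul]
      exact h3
    obtain ⟨e, he⟩ := hQ ⟨d, hdQ⟩
    have hone : ρ d = 1 := by
      refine eq_one_of_pow_prime_pow (e := e) hqK (LinearMap.ext fun v => ?_) ?_
      · show ρ d (ρ d v - v) - (ρ d v - v) = 0
        rw [hA1 _ (hA2 v), sub_self]
      · rw [← map_pow, show d ^ q ^ e = 1 from congrArg Subtype.val he, map_one]
    rw [show c * t₁ * c⁻¹ = t₁ * d by rw [hd, mul_inv_cancel_left], map_mul, hone, mul_one]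
  -- elements centralising `Q` in the representation
  let ρu : G →* (Module.End K V)ˣ := ρ.toHomUnits
  let Zc : Subgroup G := Q ⊓ (Subgroup.centralizer (ρu '' (Q : Set G))).comap ρu
  have hZmem : ∀ t, t ∈ Zc ↔ t ∈ Q ∧ ∀ s ∈ Q, ρ t * ρ s = ρ s * ρ t := by
    intro t
    simp only [Zc, Subgroup.mem_inf, Subgroup.mem_comap, Subgroup.mem_centralizer_iff, Set.mem_image,
      SetLike.mem_coe, forall_exists_index, and_imp, forall_apply_eq_imp_iff₂]
    refine and_congr_right fun _ => forall₂_congr fun s _ => ?_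
    rw [Units.ext_iff, Units.val_mul, Units.val_mul]
    exact eq_comm
  have hZQ : Zc ≤ Q := inf_le_left
  haveI : Finite Zc := Finite.of_injective _ (Subgroup.inclusion_injective hZQ)
  have hZconj : ∀ g ∈ P, ∀ t ∈ Zc, g * t * g⁻¹ ∈ Zc := by
    intro g hg t ht
    rw [hZmem] at ht ⊢
    refine ⟨hconjQ g hg t ht.1, fun s hs => ?_⟩
    have hs' : g⁻¹ * s * g ∈ Q := by simpa using hconjQ g⁻¹ (P.inv_mem hg) s hs
    have h1 := congrArg (fun f => ρ g * f * ρ g⁻¹) (ht.2 _ hs')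
    simp only [← map_mul] at h1 ⊢
    convert h1 using 2 <;> group
  -- the centre acts by scalars
  have hscalar : ∀ t ∈ Zc, IsScalar ρ t := by
    let T : Zc → Module.End K V := fun z => ρ (z : G)
    obtain ⟨v, -, hv0, χ, hχ⟩ := exists_weight T
      (fun a b => ((hZmem _).mp a.2).2 _ (hZQ b.2)) _ (⊤ : Submodule K V) le_rfl top_ne_bot
      (fun _ _ _ => Submodule.mem_top)
    let Ew : (Zc → K) → Submodule K V := fun ξ => ⨅ z : Zc, Module.End.eigenspace (T z) (ξ z)
    have hEmem : ∀ ξ w, w ∈ Ew ξ ↔ ∀ z : Zc, ρ (z : G) w = ξ z • w := fun ξ w => by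
      simp [Ew, T, Submodule.mem_iInf]
    by_cases htop : Ew χ = ⊤
    · intro t ht
      exact ⟨χ ⟨t, ht⟩, LinearMap.ext fun w => (hEmem χ w).mp (htop ▸ Submodule.mem_top) ⟨t, ht⟩⟩
    exfalso
    apply hbad
    let shift : (Zc → K) → (g : G) → g ∈ P → Zc → K := fun ξ g hg z =>
      ξ ⟨g⁻¹ * (z : G) * g, by simpa using hZconj g⁻¹ (P.inv_mem hg) _ z.2⟩
    have hshift : ∀ ξ (g : G) (hg : g ∈ P), ∀ w ∈ Ew ξ, ρ g w ∈ Ew (shift ξ g hg) := by
      intro ξ g hg w hw
      rw [hEmem] at hw ⊢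
      intro z
      have h1 := congrArg (ρ g) (hw ⟨g⁻¹ * (z : G) * g, by simpa using hZconj g⁻¹ (P.inv_mem hg) _ z.2⟩)
      rw [map_smul, ← rho_mul] at h1
      rw [← rho_mul]
      convert h1 using 2
      group
    have hshift2 : ∀ ξ (g h : G) (hg : g ∈ P) (hh : h ∈ P), shift (shift ξ g hg) h hh =
        shift ξ (h * g) (P.mul_mem hh hg) := fun ξ g h hg hh => funext fun z => by
      simp only [shift]
      congr 1
      exact Subtype.ext (by simp [mul_assoc])
    have hcongr : ∀ ξ (g h : G) (hg : g ∈ P) (hh : h ∈ P), g = h → shift ξ g hg = shift ξ h hh := by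
      intro ξ g h hg hh e
      subst e
      rfl
    have hone : ∀ ξ (h1 : (1 : G) ∈ P), shift ξ 1 h1 = ξ := fun ξ h1 =>
      funext fun z => congrArg ξ (Subtype.ext (by simp))
    have hmap : ∀ ξ (g : G) (hg : g ∈ P), (Ew ξ).map (ρ g) = Ew (shift ξ g hg) := by
      intro ξ g hg
      refine le_antisymm (by rintro _ ⟨w, hw, rfl⟩; exact hshift ξ g hg w hw) fun w hw => ?_
      refine ⟨ρ g⁻¹ w, ?_, rho_apply_inv g w⟩
      have h1 := hshift _ g⁻¹ (P.inv_mem hg) w hw
      have h2 : shift (shift ξ g hg) g⁻¹ (P.inv_mem hg) = ξ := by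
        rw [hshift2 ξ g g⁻¹ hg (P.inv_mem hg)]
        exact (hcongr ξ _ _ (P.mul_mem (P.inv_mem hg) hg) P.one_mem (inv_mul_cancel g)).trans (hone ξ P.one_mem)
      rwa [h2] at h1
    have hEinv : ∀ ξ, Inv ρ Q (Ew ξ) := by
      intro ξ s hs w hw
      rw [hEmem] at hw ⊢
      intro z
      rw [← Module.End.mul_apply, ((hZmem _).mp z.2).2 s hs, Module.End.mul_apply, hw, map_smul]
    set S : Submodule K V := ⨆ g : P, (Ew χ).map (ρ (g : G))
    have hS : S = ⊤ := by
      refine (hirr S ?_ ?_).resolve_left fun h => ?_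
      · intro s hs w hw
        have : S ≤ S.comap (ρ s) := iSup_le fun g => by
          rintro x hx
          refine Submodule.mem_iSup_of_mem g ?_
          rw [hmap χ g g.2] at hx ⊢
          exact hEinv _ s hs x hx
        exact this hw
      · intro h hh w hw
        have : S ≤ S.comap (ρ h) := iSup_le fun g => by
          rintro _ ⟨x, hx, rfl⟩
          refine Submodule.mem_iSup_of_mem ⟨h * g, P.mul_mem hh g.2⟩ ⟨x, hx, ?_⟩
          rw [rho_mul]
        exact this hw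
      · have hvE : v ∈ Ew χ := (hEmem χ v).mpr hχ
        exact hv0 ((Submodule.eq_bot_iff _).mp h v
          (Submodule.mem_iSup_of_mem (1 : P) ⟨v, hvE, by simp⟩))
    refine LinearMap.ext fun w => ?_
    have hle : S ≤ LinearMap.ker (ρ (⁅y₁, y₂⁆ * t₁ * ⁅y₁, y₂⁆⁻¹) - ρ t₁) := by
      refine iSup_le fun g => ?_
      set W := (Ew χ).map (ρ (g : G)) with hWdef
      set ξ := shift χ g g.2
      have hWξ : W = Ew ξ := hmap χ g g.2
      have hWne : W ≠ ⊥ := fun h => hv0 (rho_injective (ρ := ρ) (g : G) (by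
        rw [map_zero]
        exact (Submodule.eq_bot_iff _).mp h _ ⟨v, (hEmem χ v).mpr hχ, rfl⟩))
      have hroot : ∀ y, IsRoot p ρ P y → ∃ z ∈ P, z ∈ stab ρ W ∧ ∃ m : ℕ, m ≠ 0 ∧ z ^ p ^ m = 1 ∧
          (∀ w ∈ W, ((ρ z - 1) ^ (p ^ m - 1)) w = 0) ∧ y = z ^ p ^ (m - 1) := by
        rintro y ⟨z, hz, m, hm, hzm, hr, rfl⟩
        have hex : ∃ a, shift ξ (z ^ p ^ a) (P.pow_mem hz _) = ξ := ⟨m, (hcongr _ _ _ (P.pow_mem hz _) P.one_mem hzm).trans (hone ξ P.one_mem)⟩
        set a := Nat.find hex with ha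
        have hfix := Nat.find_spec hex
        rw [← ha] at hfix
        have ham : a ≤ m := Nat.find_min' hex ((hcongr _ _ _ (P.pow_mem hz _) P.one_mem hzm).trans (hone ξ P.one_mem))
        have hdist : Set.InjOn (fun j : ℕ => shift ξ (z ^ j) (P.pow_mem hz _)) (Finset.range (p ^ a)) := by
          intro i hi j hj hij
          simp only [Finset.coe_range, Set.mem_Iio] at hi hj
          have key : ∀ i j : ℕ, i ≤ j → j < p ^ a →
              shift ξ (z ^ i) (P.pow_mem hz _) = shift ξ (z ^ j) (P.pow_mem hz _) → i = j := by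
            intro i j hle hj hij
            by_contra hne
            set d := j - i with hd
            have hd1 : shift ξ (z ^ d) (P.pow_mem hz _) = ξ := by
              funext x
              have h1 := congrFun hij ⟨z ^ i * (x : G) * (z ^ i)⁻¹, hZconj _ (P.pow_mem hz _) _ x.2⟩
              simp only [shift] at h1 ⊢
              have e1 : (z ^ i)⁻¹ * (z ^ i * (x : G) * (z ^ i)⁻¹) * z ^ i = x := by group
              have e2 : (z ^ j)⁻¹ * (z ^ i * (x : G) * (z ^ i)⁻¹) * z ^ j = (z ^ d)⁻¹ * (x : G) * z ^ d := by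
                rw [show j = i + d by omega, pow_add]; group
              simp only [e1, e2, Subtype.coe_eta] at h1
              exact h1.symm
            have hdl : ∀ l : ℕ, shift ξ ((z ^ d) ^ l) (P.pow_mem (P.pow_mem hz _) _) = ξ := by
              intro l
              induction l with
              | zero => exact funext fun x => congrArg ξ (Subtype.ext (by simp))
              | succ l ihl =>
                calc shift ξ ((z ^ d) ^ (l + 1)) (P.pow_mem (P.pow_mem hz _) _) = shift (shift ξ ((z ^ d) ^ l) (P.pow_mem (P.pow_mem hz _) _))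
                      (z ^ d) (P.pow_mem hz _) :=
                        (hcongr ξ _ _ (P.pow_mem (P.pow_mem hz d) (l + 1)) (P.mul_mem (P.pow_mem hz d) (P.pow_mem (P.pow_mem hz d) l))
                          (pow_succ' (z ^ d) l)).trans
                          (hshift2 ξ _ _ (P.pow_mem (P.pow_mem hz d) l) (P.pow_mem hz d)).symm
                  _ = ξ := by rw [ihl, hd1]
            obtain ⟨b, hbm, hb⟩ := (Nat.dvd_prime_pow hp.out).mp (Nat.gcd_dvd_right d (p ^ m))
            have hba : b < a := by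
              have h1 := Nat.le_of_dvd (show 0 < d by omega) (hb ▸ Nat.gcd_dvd_left d (p ^ m))
              exact (Nat.pow_lt_pow_iff_right hp.out.one_lt).mp (by omega)
            apply Nat.find_min hex (show b < Nat.find hex by omega)
            obtain ⟨l, hl⟩ : z ^ p ^ b ∈ Submonoid.powers (z ^ d) := by
              have hfin : IsOfFinOrder z := isOfFinOrder_iff_pow_eq_one.mpr ⟨p ^ m, Nat.pow_pos hp.out.pos, hzm⟩
              rw [IsOfFinOrder.mem_powers_iff_mem_zpowers hfin.pow]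
              have h1 : z ^ ((Nat.gcd d (p ^ m) : ℕ) : ℤ) ∈ Subgroup.zpowers (z ^ d) := by
                rw [Nat.gcd_eq_gcd_ab, zpow_add, zpow_mul, zpow_mul, zpow_natCast, zpow_natCast, hzm, one_zpow,
                  mul_one]
                exact Subgroup.zpow_mem _ (Subgroup.mem_zpowers _) _
              rwa [zpow_natCast, hb] at h1
            simp only at hl
            exact (hcongr _ _ _ (P.pow_mem hz _) (P.pow_mem (P.pow_mem hz _) _) hl.symm).trans (hdl l)
          rcases le_total i j with h | h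
          · exact key i j h hj hij
          · exact (key j i h hi hij.symm).symm
        have hindep : ∀ w0 ∈ W, ((ρ z - 1) ^ (p ^ a - 1)) w0 = 0 → w0 = 0 := by
          intro w0 hw0 h
          rw [rho_sub_one_pow_pred, LinearMap.sum_apply] at h
          rw [hWξ] at hw0
          have h1 := eq_zero_of_sum_weights T (fun j : ℕ => shift ξ (z ^ j) (P.pow_mem hz _)) _ hdist
            (fun j => ρ (z ^ j) w0) (fun j _ x => (hEmem _ _).mp (hshift ξ _ (P.pow_mem hz _) w0 hw0) x)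
            (by simpa only [map_pow] using h) 0 (Finset.mem_range.mpr (Nat.pow_pos hp.out.pos))
          simpa using h1
        have ham' : a < m := lt_of_le_of_ne ham fun he => by
          obtain ⟨w, hw, hw0⟩ := Submodule.exists_mem_ne_zero_of_ne_bot hWne
          exact hw0 (hindep w hw (by rw [he, hr, LinearMap.zero_apply]))
        refine ⟨z ^ p ^ a, P.pow_mem hz _, ?_, m - a, by omega, ?_, fun w hw => ?_, ?_⟩
        · show W.map (ρ (z ^ p ^ a)) = W
          rw [hWξ, hmap ξ _ (P.pow_mem hz _), hfix]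
        · rw [← pow_mul, ← pow_add, Nat.add_sub_cancel' ham, hzm]
        · refine hindep _ ?_ ?_
          · have hstable : ∀ j : ℕ, ∀ x ∈ W, ((ρ (z ^ p ^ a) - 1) ^ j) x ∈ W := by
              intro j
              induction j with
              | zero => intro x hx; simpa using hx
              | succ j ihj =>
                intro x hx
                rw [pow_succ', Module.End.mul_apply, LinearMap.sub_apply, Module.End.one_apply]
                refine W.sub_mem ?_ (ihj x hx)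
                rw [hWξ] at ihj hx ⊢
                have := hshift ξ _ (P.pow_mem hz (p ^ a)) _ (ihj x hx)
                rwa [hfix] at this
            exact hstable _ w hw
          · have h1 : p ^ a * p ^ (m - a) = p ^ m := by rw [← pow_add, Nat.add_sub_cancel' ham]
            have h2 := Nat.one_le_pow (m - a) p hp.out.pos
            have h3 := Nat.one_le_pow a p hp.out.pos
            obtain ⟨e, he⟩ := Nat.exists_eq_add_of_le h2
            rw [he, mul_add, mul_one] at h1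
            rw [map_pow, ← rho_sub_one_pow, ← pow_mul, ← Module.End.mul_apply, ← pow_add, he,
              Nat.add_sub_cancel_left, show p ^ a - 1 + p ^ a * e = p ^ m - 1 by omega, hr, LinearMap.zero_apply]
        · rw [← pow_mul, ← pow_add]
          congr 2
          omega
      intro w hw
      rw [LinearMap.mem_ker, LinearMap.sub_apply, sub_eq_zero]
      refine hlocal W (hWξ ▸ hEinv ξ) ?_ y₁ y₂ (hroot y₁ hy₁) (hroot y₂ hy₂) t₁ ht₁ w hw
      refine lt_of_le_of_lt (le_of_eq ?_) (Submodule.finrank_lt htop)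
      exact ((Submodule.equivMapOfInjective _ (rho_injective (g : G)) _).finrank_eq).symm
    have := hle (hS ▸ (Submodule.mem_top : w ∈ (⊤ : Submodule K V)))
    rwa [LinearMap.mem_ker, LinearMap.sub_apply, sub_eq_zero] at this
  -- commutators of roots generate
  let X : Set G := {x | ∃ c, Rt c ∧ ∃ t ∈ Q, x = t⁻¹ * (c * t * c⁻¹)}
  have hXQ : Subgroup.closure X ≤ Q := by
    rw [Subgroup.closure_le]
    rintro _ ⟨c, hc, t, ht, rfl⟩
    exact Q.mul_mem (Q.inv_mem ht) (hconjQ c (hRtP c hc) t ht)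
  have hK0 : Subgroup.closure X = Q := by
    by_contra hne
    have hXconj : ∀ g ∈ P, ∀ x ∈ Subgroup.closure X, g * x * g⁻¹ ∈ Subgroup.closure X := by
      intro g hg x hx
      induction hx using Subgroup.closure_induction with
      | mem x hx =>
        obtain ⟨c, hc, t, ht, rfl⟩ := hx
        refine Subgroup.subset_closure ⟨g * c * g⁻¹, hRtconj c hc g hg, g * t * g⁻¹, hconjQ g hg t ht, ?_⟩
        group
      | one => simp
      | mul a b _ _ iha ihb =>
        convert Subgroup.mul_mem _ iha ihb using 1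
        group
      | inv a _ iha =>
        convert Subgroup.inv_mem _ iha using 1
        group
    have hnorm : P ≤ Subgroup.normalizer ((Subgroup.closure X : Subgroup G) : Set G) := fun g hg => by
      rw [Subgroup.mem_normalizer_iff]
      refine fun h => ⟨hXconj g hg h, fun hh => ?_⟩
      simpa [mul_assoc] using hXconj g⁻¹ (P.inv_mem hg) _ hh
    have hfix := hsmall _ (lt_of_le_of_ne hXQ hne) hnorm
    apply hbad
    set c := ⁅y₁, y₂⁆
    set d := t₁⁻¹ * (c * t₁ * c⁻¹) with hd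
    have hdX : d ∈ Subgroup.closure X := Subgroup.subset_closure ⟨c, hRt₀, t₁, ht₁, rfl⟩
    have hcd := hfix c hRt₀ d hdX
    have htd : c * t₁ * c⁻¹ = t₁ * d := by rw [hd, mul_inv_cancel_left]
    have hiter : ∀ j : ℕ, ρ (c ^ j * t₁ * (c ^ j)⁻¹) = ρ (t₁ * d ^ j) := by
      intro j
      induction j with
      | zero => simp
      | succ j ihj =>
        rw [show c ^ (j + 1) * t₁ * (c ^ (j + 1))⁻¹ = c * (c ^ j * t₁ * (c ^ j)⁻¹) * c⁻¹ by
            rw [pow_succ']; group,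
          map_mul, map_mul, ihj, ← map_mul, ← map_mul,
          show c * (t₁ * d ^ j) * c⁻¹ = c * t₁ * c⁻¹ * (c * d * c⁻¹) ^ j by rw [conj_pow]; group,
          map_mul, map_pow, hcd, ← map_pow, htd, ← map_mul, mul_assoc, ← pow_succ']
    obtain ⟨k, hk⟩ := hP ⟨c, hRtP c hRt₀⟩
    have h1 := hiter (p ^ k)
    rw [show c ^ p ^ k = 1 from congrArg Subtype.val hk, one_mul, inv_one, mul_one, map_mul, map_pow] at h1
    have hdp : ρ d ^ p ^ k = 1 := by
      have h2 := congrArg (ρ t₁⁻¹ * ·) h1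
      simp only [← mul_assoc, ← map_mul, inv_mul_cancel, map_one, one_mul] at h2
      exact h2.symm
    obtain ⟨e, he⟩ := hQ ⟨d, hXQ hdX⟩
    have hde : ρ d ^ q ^ e = 1 := by
      rw [← map_pow, show d ^ q ^ e = 1 from congrArg Subtype.val he, map_one]
    have hcop : Nat.gcd (p ^ k) (q ^ e) = 1 :=
      Nat.Coprime.pow k e ((Nat.coprime_primes hp.out hq.out).mpr hqp.symm)
    have hone : ρ d = 1 := by
      have := pow_gcd_eq_one.mpr ⟨hdp, hde⟩
      rwa [hcop, pow_one] at this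
    rw [htd, map_mul, hone, mul_one]
  have hQne : Q ≠ ⊥ := fun h => hbad (by
    rw [h, Subgroup.mem_bot] at ht₁
    rw [ht₁, mul_one, mul_inv_cancel])
  -- commutators are scalars
  have hcom : ∀ a ∈ Q, ∀ b ∈ Q, IsScalar ρ ⁅a, b⁆ := by
    intro a ha b hb
    haveI : Nontrivial Q := Q.nontrivial_iff_ne_bot.mpr hQne
    haveI : Group.IsNilpotent Q := hQ.isNilpotent
    have hlt : ⁅Q, Q⁆ < Q := by
      have h1 : (commutator Q).map Q.subtype = ⁅Q, Q⁆ := by
        rw [commutator_def, Subgroup.map_commutator, ← MonoidHom.range_eq_map, Subgroup.range_subtype]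
      rw [← h1]
      have h2 := Subgroup.map_lt_map_iff_of_injective (Q.subtype_injective) |>.mpr
        (Group.IsSolvable.commutator_lt_top_of_nontrivial Q)
      rwa [← MonoidHom.range_eq_map, Subgroup.range_subtype] at h2
    have hnorm : P ≤ Subgroup.normalizer ((⁅Q, Q⁆ : Subgroup G) : Set G) := by
      intro g hg
      rw [Subgroup.mem_normalizer_iff]
      intro h
      have hmap : Q.map (MulAut.conj g).toMonoidHom = Q := by
        ext x
        rw [Subgroup.mem_map_equiv]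
        have := Subgroup.mem_normalizer_iff.mp (hPQ hg) ((MulAut.conj g).symm x)
        rw [this]
        simp [mul_assoc]
      have hmap2 : (⁅Q, Q⁆).map (MulAut.conj g).toMonoidHom = ⁅Q, Q⁆ := by rw [Subgroup.map_commutator, hmap]
      conv_rhs => rw [← hmap2, Subgroup.mem_map_equiv]
      simp [mul_assoc]
    have hfix := hsmall _ hlt hnorm
    set x := ⁅a, b⁆
    have hxC : x ∈ ⁅Q, Q⁆ := Subgroup.commutator_mem_commutator ha hb
    refine hscalar x ((hZmem x).mpr ⟨hlt.le hxC, fun s hs => ?_⟩)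
    rw [← hK0] at hs
    induction hs using Subgroup.closure_induction with
    | mem z hz =>
      obtain ⟨c, hc, t, ht, rfl⟩ := hz
      have htx : t * x * t⁻¹ ∈ ⁅Q, Q⁆ := (Subgroup.mem_normalizer_iff.mp (le_normalizer_commutator Q ht) x).mp hxC
      have h1 := hfix c hc _ htx
      have h2 : ρ (t⁻¹ * (c * t * c⁻¹)) * ρ x * ρ (t⁻¹ * (c * t * c⁻¹))⁻¹ = ρ x := by
        have h3 : ρ (c * t * c⁻¹ * x * (c * t * c⁻¹)⁻¹) = ρ (t * x * t⁻¹) := by
          rw [← h1, show c * (t * x * t⁻¹) * c⁻¹ = c * t * c⁻¹ * (c * x * c⁻¹) * (c * t * c⁻¹)⁻¹ by group,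
            map_mul ρ _ ((c * t * c⁻¹)⁻¹), map_mul ρ _ ((c * t * c⁻¹)⁻¹), map_mul ρ (c * t * c⁻¹) x,
            map_mul ρ (c * t * c⁻¹) (c * x * c⁻¹), hfix c hc x hxC]
        calc ρ (t⁻¹ * (c * t * c⁻¹)) * ρ x * ρ (t⁻¹ * (c * t * c⁻¹))⁻¹
            = ρ t⁻¹ * ρ (c * t * c⁻¹ * x * (c * t * c⁻¹)⁻¹) * ρ t := by
              simp only [← map_mul]; congr 1; group
          _ = ρ t⁻¹ * ρ (t * x * t⁻¹) * ρ t := by rw [h3]
          _ = ρ x := by simp only [← map_mul]; congr 1; group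
      set d := t⁻¹ * (c * t * c⁻¹)
      calc ρ x * ρ d = ρ d * ρ x * ρ d⁻¹ * ρ d := by rw [h2]
        _ = ρ d * ρ x := by rw [mul_assoc (ρ d * ρ x), ← map_mul ρ d⁻¹, inv_mul_cancel, map_one, mul_one]
    | one => rw [map_one, one_mul, mul_one]
    | mul a b _ _ iha ihb => rw [map_mul, ← mul_assoc, iha, mul_assoc, ihb, ← mul_assoc]
    | inv a _ iha =>
      calc ρ x * ρ a⁻¹ = ρ a⁻¹ * (ρ a * (ρ x * ρ a⁻¹)) := (rho_cancel ρ a _).symm
        _ = ρ a⁻¹ * (ρ x * (ρ a * ρ a⁻¹)) := by rw [← mul_assoc (ρ a), ← iha, mul_assoc]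
        _ = _ := by rw [← map_mul, mul_inv_cancel, map_one, mul_one]
  -- the module `Q / Φ(Q) Z`
  set L : Subgroup G := P ⊔ Q
  have hPL : P ≤ L := le_sup_left
  have hQL : Q ≤ L := le_sup_right
  haveI hQn : (Q.subgroupOf L).Normal := Subgroup.normal_subgroupOf_of_le_normalizer
    (sup_le hPQ Subgroup.le_normalizer)
  have hQ' : IsPGroup q (Q.subgroupOf L) := hQ.of_equiv (Subgroup.subgroupOfEquivOfLe hQL).symm
  obtain ⟨V1, i1, i2, i3, π, ρ1, hπs, hπadd, hπ0, hρ1⟩ := exists_frattiniModule (Q.subgroupOf L) hQ'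
  have hπ1 : π 1 = 0 := (hπ0 1).mpr (one_mem _)
  let πh : Q.subgroupOf L →* Multiplicative V1 :=
    MonoidHom.mk' (fun a => Multiplicative.ofAdd (π a)) fun a b => by rw [hπadd]; rfl
  let ZL : Subgroup (Q.subgroupOf L) := (Zc.subgroupOf L).subgroupOf (Q.subgroupOf L)
  let U : Submodule (ZMod q) V1 := AddSubgroup.toZModSubmodule q (Subgroup.toAddSubgroup' (ZL.map πh))
  have hUmem : ∀ x, x ∈ U ↔ ∃ a ∈ ZL, π a = x := fun x => by
    show Multiplicative.ofAdd x ∈ ZL.map πh ↔ _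
    rw [Subgroup.mem_map]
    exact exists_congr fun a => and_congr_right fun _ => Multiplicative.ofAdd.injective.eq_iff
  have hUinv : Inv ρ1 (P.subgroupOf L) U := by
    intro g hg x hx
    rw [hUmem] at hx ⊢
    obtain ⟨a, ha, rfl⟩ := hx
    refine ⟨MulAut.conjNormal g a, ?_, (hρ1 g a).symm⟩
    show (((MulAut.conjNormal g a : Q.subgroupOf L) : L) : G) ∈ Zc
    rw [MulAut.conjNormal_apply]
    exact hZconj _ hg _ ha
  let φ : P →* Module.End (ZMod q) (V1 ⧸ U) :=
    (quot ρ1 (P.subgroupOf L) U hUinv).comp (Subgroup.subgroupOfEquivOfLe hPL).symm.toMonoidHom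
  let π2 : Q → V1 ⧸ U := fun a => Submodule.Quotient.mk (π ⟨⟨a, hQL a.2⟩, a.2⟩)
  have hπ2add : ∀ a b : Q, π2 (a * b) = π2 a + π2 b := fun a b => by
    show Submodule.Quotient.mk (π _) = _
    rw [show (⟨⟨((a * b : Q) : G), hQL (a * b).2⟩, (a * b).2⟩ : Q.subgroupOf L) =
      ⟨⟨(a : G), hQL a.2⟩, a.2⟩ * ⟨⟨(b : G), hQL b.2⟩, b.2⟩ from rfl, hπadd]
    rfl
  have hπ2s : Function.Surjective π2 := by
    intro x
    obtain ⟨x, rfl⟩ := Submodule.Quotient.mk_surjective U x
    obtain ⟨a, rfl⟩ := hπs x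
    exact ⟨⟨(a : L), a.2⟩, rfl⟩
  have hφπ : ∀ (g : P) (a : Q), φ g (π2 a) = π2 ⟨(g : G) * a * (g : G)⁻¹, hconjQ g g.2 a a.2⟩ := by
    intro g a
    show Submodule.Quotient.mk (ρ1 _ (π _)) = Submodule.Quotient.mk (π _)
    rw [hρ1]
    rfl
  have hπ2Z : ∀ a : Q, (a : G) ∈ Zc → π2 a = 0 := fun a ha => by
    show Submodule.Quotient.mk (π _) = 0
    rw [Submodule.Quotient.mk_eq_zero, hUmem]
    exact ⟨⟨⟨(a : G), hQL a.2⟩, a.2⟩, ha, rfl⟩
  let π2h : Q →* Multiplicative (V1 ⧸ U) :=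
    MonoidHom.mk' (fun a => Multiplicative.ofAdd (π2 a)) fun a b => by rw [hπ2add]; rfl
  haveI : Finite (V1 ⧸ U) := Finite.of_surjective π2 hπ2s
  -- roots have small support on it
  have hrange : ∀ z (hz : z ∈ P) (m : ℕ), m ≠ 0 → z ^ p ^ m = 1 → (ρ z - 1) ^ (p ^ m - 1) = 0 →
      Nat.card (LinearMap.range (φ ((⟨z, hz⟩ : P) ^ p ^ (m - 1)) - 1)) ≤ (p ^ m - 1) ^ 2 := by
    intro z hz m hm hzm hr
    set g : P := (⟨z, hz⟩ : P) ^ p ^ (m - 1) with hg
    set A : Module.End (ZMod q) (V1 ⧸ U) := φ g - 1 with hA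
    let ψ : Q →* Multiplicative (LinearMap.range A) :=
      MonoidHom.mk' (fun a => Multiplicative.ofAdd (A.rangeRestrict (π2 a))) fun a b => by
        rw [hπ2add, map_add]; rfl
    have hψs : Function.Surjective ψ := by
      intro x
      obtain ⟨⟨_, v, rfl⟩, rfl⟩ := Multiplicative.ofAdd.surjective x
      obtain ⟨a, rfl⟩ := hπ2s v
      exact ⟨a, rfl⟩
    have hR : ∀ t ∈ Q, ⁅(g : G), t⁆ ∈ Zc → t ∈ ψ.ker.map Q.subtype := by
      intro t ht htz
      refine ⟨⟨t, ht⟩, ?_, rfl⟩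
      show Multiplicative.ofAdd (A.rangeRestrict (π2 ⟨t, ht⟩)) = 1
      refine congrArg Multiplicative.ofAdd (Subtype.ext ?_)
      show A (π2 ⟨t, ht⟩) = 0
      rw [hA, LinearMap.sub_apply, Module.End.one_apply, hφπ, sub_eq_zero]
      have h1 : (⟨(g : G) * t * (g : G)⁻¹, hconjQ g g.2 t ht⟩ : Q) =
          ⟨⁅(g : G), t⁆, hZQ htz⟩ * ⟨t, ht⟩ := Subtype.ext (by simp [commutatorElement_def, mul_assoc])
      rw [h1, hπ2add, hπ2Z _ htz, zero_add]
    have hgz : (g : G) = z ^ p ^ (m - 1) := rfl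
    have hb := card_le_aux (p := p) (Module.finrank K V) G V ρ Q Zc (ψ.ker.map Q.subtype) z m le_rfl (by
        obtain ⟨e, he⟩ := IsPGroup.iff_card.mp hQ
        rw [he, Nat.cast_pow]; exact pow_ne_zero e hqK)
      hZQ hcom hscalar (fun t ht h => (hZmem t).mpr ⟨ht, h⟩) (hPQ hz) hzm hr (hgz ▸ hR)
    rw [inf_eq_left.mpr (Subgroup.map_subtype_le _), Subgroup.card_map_of_injective Q.subtype_injective] at hb
    have h2 : Nat.card Q = Nat.card ψ.ker * Nat.card (LinearMap.range A) := by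
      rw [← ψ.ker.card_mul_index, Subgroup.index_ker, MonoidHom.range_eq_top.mpr hψs, Subgroup.card_top,
        Nat.card_congr Multiplicative.toAdd]
    rw [h2, mul_comm] at hb
    exact Nat.le_of_mul_le_mul_right hb Nat.card_pos
  -- hence root commutators are trivial on it
  have hcomm1 : ∀ c (hc : Rt c), φ ⟨c, hRtP c hc⟩ = 1 := by
    rintro c ⟨y, y', hy, hy', rfl⟩
    obtain ⟨z, hz, m, hm, hzm, hr, rfl⟩ := id hy
    obtain ⟨z', hz', m', hm', hzm', hr', rfl⟩ := id hy'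
    have h := commute_of_small_range hp2 hqp hP φ (⟨z, hz⟩ : P) ⟨z', hz'⟩ hm (Subtype.ext hzm)
      (hrange z hz m hm hzm hr) hm' (Subtype.ext hzm') (hrange z' hz' m' hm' hzm' hr')
    set Y : P := (⟨z, hz⟩ : P) ^ p ^ (m - 1)
    set Y' : P := (⟨z', hz'⟩ : P) ^ p ^ (m' - 1)
    rw [show (⟨⁅z ^ p ^ (m - 1), z' ^ p ^ (m' - 1)⁆, _⟩ : P) = ⁅Y, Y'⁆ from
      Subtype.ext (map_commutatorElement P.subtype Y Y').symm]
    calc φ ⁅Y, Y'⁆ = φ Y * φ Y' * φ Y⁻¹ * φ Y'⁻¹ := by rw [commutatorElement_def, map_mul, map_mul, map_mul]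
      _ = 1 := by
        rw [h, mul_assoc (φ Y'), ← map_mul φ Y, mul_inv_cancel, map_one, mul_one, ← map_mul, mul_inv_cancel,
          map_one]
  -- so `Q` is generated inside the kernel
  have hker : ∀ a : Q, π2 a = 0 := by
    have hXk : Subgroup.closure X ≤ π2h.ker.map Q.subtype := by
      rw [Subgroup.closure_le]
      rintro _ ⟨c, hc, t, ht, rfl⟩
      refine ⟨⟨t, ht⟩⁻¹ * ⟨c * t * c⁻¹, hconjQ c (hRtP c hc) t ht⟩, ?_, rfl⟩
      show Multiplicative.ofAdd (π2 _) = 1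
      refine congrArg Multiplicative.ofAdd ?_
      rw [hπ2add, ← hφπ ⟨c, hRtP c hc⟩ ⟨t, ht⟩, hcomm1 c hc, Module.End.one_apply, ← hπ2add, inv_mul_cancel]
      exact hπ2Z 1 (Zc.one_mem)
    intro a
    obtain ⟨a', ha', he⟩ := hXk (hK0.ge a.2)
    rw [show a = a' from Subtype.ext he.symm]
    exact Multiplicative.ofAdd.injective ha'
  have hZtop : ZL = ⊤ := by
    refine frattini_nongenerating ?_
    rw [eq_top_iff]
    intro a _
    have h1 := hker ⟨(a : L), a.2⟩
    rw [show π2 ⟨(a : L), a.2⟩ = Submodule.Quotient.mk (π a) from rfl, Submodule.Quotient.mk_eq_zero, hUmem] at h1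
    obtain ⟨b, hb, hab⟩ := h1
    have h2 : b⁻¹ * a ∈ frattini (Q.subgroupOf L) := by
      rw [← hπ0]
      have h3 := hπadd b (b⁻¹ * a)
      rw [mul_inv_cancel_left, ← hab] at h3
      exact left_eq_add.mp h3
    rw [show a = b * (b⁻¹ * a) from (mul_inv_cancel_left b a).symm]
    exact Subgroup.mul_mem _ (Subgroup.mem_sup_left hb) (Subgroup.mem_sup_right h2)
  have ht₁Z : t₁ ∈ Zc := by
    have : (⟨⟨t₁, hQL ht₁⟩, ht₁⟩ : Q.subgroupOf L) ∈ ZL := hZtop ▸ Subgroup.mem_top _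
    exact this
  obtain ⟨k, hk⟩ := hscalar t₁ ht₁Z
  apply hbad
  rw [map_mul, map_mul, hk, mul_smul_comm, mul_one, smul_mul_assoc, ← map_mul, mul_inv_cancel, map_one]

/-- Over any field of characteristic `p`: commutators of roots act trivially on the `q`-group. -/
theorem commutator_fix {K : Type w} {G : Type u} {V : Type v} [Field K] [Group G] [AddCommGroup V] [Module K V]
    [FiniteDimensional K V] {p q : ℕ} [Fact p.Prime] [Fact q.Prime] [CharP K p] (hp2 : p ≠ 2) (hqp : q ≠ p)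
    [Finite G] (ρ : G →* Module.End K V) (P Q : Subgroup G) (hP : IsPGroup p P) (hQ : IsPGroup q Q)
    (hPQ : P ≤ Subgroup.normalizer (Q : Set G)) {y y' : G} (hy : IsRoot p ρ P y) (hy' : IsRoot p ρ P y') :
    ∀ t ∈ Q, ρ (⁅y, y'⁆ * t * ⁅y, y'⁆⁻¹) = ρ t := by
  haveI : CharP (AlgebraicClosure K) p := charP_of_injective_algebraMap (algebraMap K _).injective p
  obtain ⟨D, φ, hφ⟩ := exists_extendScalars (K := K) (V := V) (AlgebraicClosure K)
  have hroot : ∀ y, IsRoot p ρ P y → IsRoot p (φ.toMonoidHom.comp ρ) P y := by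
    rintro y ⟨z, hz, m, hm, hzm, hr, rfl⟩
    refine ⟨z, hz, m, hm, hzm, ?_, rfl⟩
    show (φ (ρ z) - 1) ^ (p ^ m - 1) = 0
    rw [← map_one φ, ← map_sub, ← map_pow, hr, map_zero]
  intro t ht
  exact hφ (commutator_fix_aux hp2 hqp _ G (Fin D → AlgebraicClosure K) (φ.toMonoidHom.comp ρ) P Q y y' rfl hP hQ
    hPQ (hroot y hy) (hroot y' hy') t ht)

end Cfsg.Agent.Lib.HallHigman
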