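import Cfsg.Agent.Lib.HallHigman.Core
import Cfsg.Agent.Lib.FixHalf.Perm

set_option autoImplicit false

/-!
A unipotent element of small degree centralises a large part of an irreducible group of class two:
count the orbits on the monomial basis of the endomorphism algebra.
-/

namespace Cfsg.Agent.Lib.HallHigman

open scoped commutatorElement

/-- The orbit count for a permutation whose `p ^ m`-th power is trivial. -/
theorem orbit_count_pow {ι : Type*} [Finite ι] {p m : ℕ} [hp : Fact p.Prime] (σ : Equiv.Perm ι)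
    (hσ : σ ^ p ^ m = 1) :
    p ^ m * Nat.card (Quotient (MulAction.orbitRel (Subgroup.zpowers σ) ι)) ≤
      Nat.card ι + (p ^ m - 1) * Nat.card {i // (σ ^ p ^ (m - 1)) i = i} := by
  classical
  set O := Quotient (MulAction.orbitRel (Subgroup.zpowers σ) ι)
  set C := {i // (σ ^ p ^ (m - 1)) i = i}
  let f : O × Fin (p ^ m) → ι ⊕ (C × Fin (p ^ m - 1)) := fun x =>
    if h : (σ ^ p ^ (m - 1)) x.1.out = x.1.out then
      if hj : (x.2 : ℕ) = 0 then Sum.inl x.1.out
      else Sum.inr (⟨x.1.out, h⟩, ⟨(x.2 : ℕ) - 1, by have := x.2.2; omega⟩)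
    else Sum.inl ((σ ^ (x.2 : ℕ)) x.1.out)
  have hrel : ∀ (o : O) (j : ℕ), (Quotient.mk _ ((σ ^ j) o.out) : O) = o := fun o j => by
    conv_rhs => rw [← Quotient.out_eq o]
    exact Quotient.sound ⟨⟨σ ^ j, Subgroup.npow_mem_zpowers σ j⟩, rfl⟩
  have hreg : ∀ i, (σ ^ p ^ (m - 1)) i ≠ i → ∀ d, (σ ^ d) i = i → p ^ m ∣ d := by
    intro i hi d hd
    have h1 : ∀ k : ℕ, (σ ^ k) i = i ↔ Function.minimalPeriod σ i ∣ k := fun k => by
      rw [Equiv.Perm.coe_pow]
      exact (Function.isPeriodicPt_iff_minimalPeriod_dvd (f := σ) (x := i) (n := k))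
    have h2 : Function.minimalPeriod σ i ∣ p ^ m := (h1 _).mp (by rw [hσ]; rfl)
    obtain ⟨b, hb, hb'⟩ := (Nat.dvd_prime_pow hp.out).mp h2
    have h3 : b = m := by
      by_contra hne
      exact hi ((h1 _).mpr (hb' ▸ Nat.pow_dvd_pow p (by omega)))
    exact (h3 ▸ hb') ▸ (h1 d).mp hd
  have hf : Function.Injective f := by
    rintro ⟨o, j⟩ ⟨o', j'⟩ h
    by_cases ho : (σ ^ p ^ (m - 1)) o.out = o.out <;> by_cases ho' : (σ ^ p ^ (m - 1)) o'.out = o'.out
    · by_cases hj : (j : ℕ) = 0 <;> by_cases hj' : (j' : ℕ) = 0 <;>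
        simp only [f, dif_pos ho, dif_pos ho', dif_pos, hj, hj', dif_neg, not_false_eq_true, reduceCtorEq,
          Sum.inl.injEq, Sum.inr.injEq, Prod.mk.injEq, Fin.mk.injEq] at h
      · exact Prod.ext (Quotient.out_injective h) (Fin.ext (hj.trans hj'.symm))
      · have h1 := congrArg Subtype.val h.1
        have h2 := h.2
        exact Prod.ext (Quotient.out_injective h1) (Fin.ext (show (j : ℕ) = j' by omega))
    · by_cases hj : (j : ℕ) = 0
      · simp only [f, dif_pos ho, dif_neg ho', dif_pos hj, Sum.inl.injEq] at h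
        have he := hrel o' j'
        rw [← h, Quotient.out_eq] at he
        subst he
        exact absurd ho ho'
      · simp only [f, dif_pos ho, dif_neg ho', dif_neg hj, reduceCtorEq] at h
    · by_cases hj' : (j' : ℕ) = 0
      · simp only [f, dif_pos ho', dif_neg ho, dif_pos hj', Sum.inl.injEq] at h
        have he := hrel o j
        rw [h, Quotient.out_eq] at he
        subst he
        exact absurd ho' ho
      · simp only [f, dif_pos ho', dif_neg ho, dif_neg hj', reduceCtorEq] at h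
    · simp only [f, dif_neg ho, dif_neg ho', Sum.inl.injEq] at h
      have he : o = o' := by
        have h1 := hrel o j
        rw [h, hrel o' j'] at h1
        exact h1.symm
      subst he
      refine Prod.ext rfl (Fin.ext ?_)
      have hdiv : ∀ a b : Fin (p ^ m), (a : ℕ) ≤ b → (σ ^ (a : ℕ)) o.out = (σ ^ (b : ℕ)) o.out →
          (a : ℕ) = b := by
        intro a b hab hh
        have h1 : (σ ^ ((b : ℕ) - a)) o.out = o.out := by
          apply (σ ^ (a : ℕ)).injective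
          rw [← Equiv.Perm.mul_apply, ← pow_add, Nat.add_sub_cancel' hab]
          exact hh.symm
        have := Nat.eq_zero_of_dvd_of_lt (hreg _ ho _ h1) (by have := b.2; omega)
        omega
      rcases le_total (j : ℕ) j' with hle | hle
      · exact hdiv j j' hle h
      · exact (hdiv j' j hle h.symm).symm
  have := Nat.card_le_card_of_injective f hf
  rw [Nat.card_prod, Nat.card_sum, Nat.card_prod, Nat.card_fin, Nat.card_fin] at this
  rw [mul_comm (p ^ m), mul_comm (p ^ m - 1)]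
  exact this

variable {K G V : Type*} [Field K] [Group G] [AddCommGroup V] [Module K V]

theorem IsScalar.mul_comm' {ρ : G →* Module.End K V} {a : G} (h : IsScalar ρ a) (f : Module.End K V) :
    ρ a * f = f * ρ a := by
  obtain ⟨c, hc⟩ := h
  rw [hc, smul_mul_assoc, one_mul, mul_smul_comm, mul_one]

theorem rho_cancel (ρ : G →* Module.End K V) (a : G) (f : Module.End K V) : ρ a⁻¹ * (ρ a * f) = f := by
  rw [← mul_assoc, ← map_mul, inv_mul_cancel, map_one, one_mul]

theorem rho_cancel' (ρ : G →* Module.End K V) (a : G) (f : Module.End K V) : ρ a * (ρ a⁻¹ * f) = f := by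
  rw [← mul_assoc, ← map_mul, mul_inv_cancel, map_one, one_mul]

/-- The orbit bound for an element acting unipotently of degree `r` on an irreducible group of class two. -/
theorem card_le_of_classTwo [IsAlgClosed K] [FiniteDimensional K V] [Nontrivial V] {p : ℕ} [hp : Fact p.Prime]
    (ρ : G →* Module.End K V) (Q Zs R : Subgroup G) [Finite Q] (hQK : (Nat.card Q : K) ≠ 0)
    (hirr : Irred ρ Q) (hZQ : Zs ≤ Q) (hcom : ∀ a ∈ Q, ∀ b ∈ Q, IsScalar ρ ⁅a, b⁆)
    (hZ : ∀ t ∈ Zs, IsScalar ρ t) (hZc : ∀ t ∈ Q, (∀ s ∈ Q, ρ t * ρ s = ρ s * ρ t) → t ∈ Zs)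
    (u : G) {m r : ℕ} (huQ : u ∈ Subgroup.normalizer (Q : Set G)) (hu : u ^ p ^ m = 1)
    (hr : (ρ u - 1) ^ r = 0) (hR : ∀ t ∈ Q, ⁅u ^ p ^ (m - 1), t⁆ ∈ Zs → t ∈ R) :
    Nat.card Q * (p ^ m - r) ≤ r * (p ^ m - 1) * Nat.card (R ⊓ Q : Subgroup G) := by
  classical
  letI := Fintype.ofFinite Q
  have hQc : (Fintype.card Q : K) ≠ 0 := by rwa [← Nat.card_eq_fintype_card]
  have hscZ : ∀ t ∈ Q, IsScalar ρ t → t ∈ Zs := fun t ht h => hZc t ht fun s _ => h.mul_comm' _
  have hone : ∀ a b : G, ρ ⁅a, b⁆ = 1 → ρ a * ρ b = ρ b * ρ a := fun a b h => by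
    rw [← map_mul, ← map_mul, show a * b = ⁅a, b⁆ * (b * a) by rw [commutatorElement_def]; group, map_mul, h,
      one_mul]
  have hone' : ∀ a b : G, ρ a * ρ b = ρ b * ρ a → ρ ⁅a, b⁆ = 1 := fun a b h => by
    rw [show ⁅a, b⁆ = a * b * (b * a)⁻¹ by rw [commutatorElement_def]; group, map_mul, map_mul ρ a b, h,
      ← map_mul ρ b a, ← map_mul, mul_inv_cancel, map_one]
  have hconj : ∀ c, IsScalar ρ c → ∀ g : G, ρ (g * c * g⁻¹) = ρ c := fun c hc g => by
    rw [map_mul, map_mul, ← hc.mul_comm' (ρ g), mul_assoc, ← map_mul ρ g, mul_inv_cancel, map_one, mul_one]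
  have hlin : ∀ a ∈ Q, ∀ b ∈ Q, ∀ t ∈ Q, ρ ⁅a * b, t⁆ = ρ ⁅a, t⁆ * ρ ⁅b, t⁆ := fun a ha b hb t ht => by
    rw [show ⁅a * b, t⁆ = a * ⁅b, t⁆ * a⁻¹ * ⁅a, t⁆ by simp only [commutatorElement_def]; group, map_mul,
      hconj _ (hcom b hb t ht)]
    exact (hcom b hb t ht).mul_comm' _
  have hlin' : ∀ a ∈ Q, ∀ b ∈ Q, ∀ c ∈ Q, ρ ⁅a, b * c⁆ = ρ ⁅a, b⁆ * ρ ⁅a, c⁆ := fun a ha b hb c hc => by
    rw [show ⁅a, b * c⁆ = ⁅a, b⁆ * (b * ⁅a, c⁆ * b⁻¹) by simp only [commutatorElement_def]; group, map_mul,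
      hconj _ (hcom a ha c hc)]
  set Z₁ := Zs.subgroupOf Q
  haveI hZn : Z₁.Normal := ⟨fun z hz g => Subgroup.mem_subgroupOf.mpr <| hscZ _ (g * z * g⁻¹).2 (by
    rw [Subgroup.coe_mul, Subgroup.coe_mul, Subgroup.coe_inv]
    exact isScalar_conj (hZ _ (Subgroup.mem_subgroupOf.mp hz)) _)⟩
  let B := Q ⧸ Z₁
  haveI := Fintype.ofFinite B
  let rep : B → Q := fun b => b.out
  have hrep : ∀ b : B, ((rep b : Q) : B) = b := fun b => b.out_eq'
  have hZtriv : ∀ z ∈ Zs, ∀ t : G, ρ ⁅z, t⁆ = 1 := fun z hz t => hone' _ _ ((hZ z hz).mul_comm' _)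
  have hcoset : ∀ v v' : Q, (v : B) = v' → ∀ t ∈ Q, ρ ⁅(v : G), t⁆ = ρ ⁅(v' : G), t⁆ := by
    intro v v' h t ht
    rw [QuotientGroup.eq, Subgroup.mem_subgroupOf] at h
    rw [show (v' : G) = v * ((v⁻¹ * v' : Q) : G) by simp, hlin _ v.2 _ (SetLike.coe_mem _) t ht,
      hZtriv _ h, mul_one]
  have hne : ∀ v ∈ Q, v ∉ Zs → ∃ s ∈ Q, ρ ⁅v, s⁆ ≠ 1 := fun v hv hvZ => by
    by_contra hall
    push Not at hall
    exact hvZ (hZc v hv fun s hs => hone _ _ (hall s hs))
  have hzero : ∀ {S : Module.End K V} {c : G}, IsScalar ρ c → ρ c ≠ 1 → ρ c * S = S → S = 0 := by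
    intro S c ⟨a, ha⟩ hne1 h
    rw [ha, smul_mul_assoc, one_mul] at h
    have ha1 : a - 1 ≠ 0 := fun h' => hne1 (by rw [ha, sub_eq_zero.mp h', one_smul])
    exact (smul_eq_zero.mp (show (a - 1) • S = 0 by rw [sub_smul, h, one_smul, sub_self])).resolve_left ha1
  have horth : ∀ v ∈ Q, v ∉ Zs → ∑ t : Q, ρ ⁅v, (t : G)⁆ = 0 := by
    intro v hv hvZ
    obtain ⟨s, hs, hs1⟩ := hne v hv hvZ
    refine hzero (hcom v hv s hs) hs1 ?_
    rw [Finset.mul_sum]
    refine Fintype.sum_equiv (Equiv.mulLeft (⟨s, hs⟩ : Q)) _ _ fun t => ?_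
    exact (hlin' v hv s hs t t.2).symm
  -- the projections
  let κ : Q → Module.End K V →ₗ[K] Module.End K V := fun t =>
    (LinearMap.mulLeft K (ρ (t : G))).comp (LinearMap.mulRight K (ρ (t : G)⁻¹))
  let P : B → Module.End K V →ₗ[K] Module.End K V := fun b =>
    ∑ t : Q, (LinearMap.mulLeft K (ρ ⁅(rep b : G), (t : G)⁆)).comp (κ t)
  have hPapply : ∀ b f, P b f = ∑ t : Q, ρ ⁅(rep b : G), (t : G)⁆ * (ρ (t : G) * (f * ρ (t : G)⁻¹)) :=
    fun b f => by simp [P, κ, LinearMap.sum_apply]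
  have hrange : ∀ b, Module.finrank K (LinearMap.range (P b)) ≤ 1 := by
    intro b
    set v := (rep b : G) with hv
    have hvQ : v ∈ Q := (rep b).2
    suffices LinearMap.range (P b) ≤ Submodule.span K {ρ v} from
      (Submodule.finrank_mono this).trans ((finrank_span_le_card _).trans (by simp))
    rintro _ ⟨f, rfl⟩
    obtain ⟨c, hc⟩ := schur hirr (ρ v⁻¹ * P b f) fun s hs => by
      have h1 : P b f = ρ ⁅v, s⁆ * (ρ s * (P b f * ρ s⁻¹)) := by
        rw [hPapply, Finset.sum_mul, Finset.mul_sum, Finset.mul_sum]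
        refine (Fintype.sum_equiv (Equiv.mulLeft (⟨s, hs⟩ : Q)) _ _ fun t => ?_).symm
        show _ = ρ ⁅v, s * (t : G)⁆ * (ρ (s * (t : G)) * (f * ρ (s * (t : G))⁻¹))
        rw [hlin' v hvQ s hs t t.2, map_mul ρ s (t : G), mul_inv_rev, map_mul ρ ((t : G)⁻¹) s⁻¹]
        simp only [← mul_assoc]
        rw [mul_assoc (ρ ⁅v, s⁆) (ρ s), ← (hcom v hvQ t t.2).mul_comm' (ρ s)]
        simp only [← mul_assoc]
      conv_rhs => rw [h1]
      rw [← mul_assoc, ← map_mul, show s * v⁻¹ = v⁻¹ * ⁅v, s⁆ * s by rw [commutatorElement_def]; group,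
        map_mul, map_mul]
      simp only [mul_assoc]
      rw [← map_mul ρ s⁻¹, inv_mul_cancel, map_one, mul_one]
    refine Submodule.mem_span_singleton.mpr ⟨c, ?_⟩
    have h2 := congrArg (ρ v * ·) hc
    simp only [rho_cancel', mul_smul_comm, mul_one] at h2
    exact h2.symm
  have hkey : ∀ t : Q, ∑ b : B, ρ ⁅(rep b : G), (t : G)⁆ =
      if (t : G) ∈ Zs then (Fintype.card B : K) • (1 : Module.End K V) else 0 := by
    intro t
    split
    · next ht =>
      rw [Finset.sum_congr rfl fun b _ => hone' _ _ ((hZ _ ht).mul_comm' (ρ (rep b : G))).symm,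
        Finset.sum_const, Finset.card_univ, Nat.cast_smul_eq_nsmul]
    · next ht =>
      obtain ⟨s, hs, hs1⟩ := hne _ t.2 ht
      have hs1' : ρ ⁅s, (t : G)⁆ ≠ 1 := fun h => hs1 (hone' _ _ (hone _ _ h).symm)
      refine hzero (hcom s hs t t.2) hs1' ?_
      rw [Finset.mul_sum]
      refine Fintype.sum_equiv (Equiv.mulLeft ((⟨s, hs⟩ : Q) : B)) _ _ fun b => ?_
      rw [← hlin s hs _ (rep b).2 t t.2]
      refine hcoset (⟨s, hs⟩ * rep b) (rep (((⟨s, hs⟩ : Q) : B) * b)) ?_ t t.2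
      rw [QuotientGroup.mk_mul, hrep, hrep]
  have hsum : ∀ f, (∀ b, P b f = 0) → f = 0 := by
    intro f hf
    have h1 : ∑ b, P b f = 0 := Finset.sum_eq_zero fun b _ => hf b
    simp only [hPapply] at h1
    rw [Finset.sum_comm] at h1
    simp only [← Finset.sum_mul, hkey] at h1
    rw [Finset.sum_congr rfl (g := fun t : Q => if (t : G) ∈ Zs then (Fintype.card B : K) • f else 0) fun t _ => ?_]
      at h1
    swap
    · split
      · next ht =>
        rw [smul_mul_assoc, one_mul, ← mul_assoc, (hZ _ ht).mul_comm' f, mul_assoc, ← map_mul, mul_inv_cancel,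
          map_one, mul_one]
      · rw [zero_mul]
    rw [← Finset.sum_filter, Finset.sum_const, ← Nat.cast_smul_eq_nsmul K, smul_smul, ← Nat.cast_mul] at h1
    refine (smul_eq_zero.mp h1).resolve_left ?_
    have hcnt : (Finset.univ.filter fun t : Q => (t : G) ∈ Zs).card = Fintype.card Z₁ := by
      rw [Fintype.card_subtype]; rfl
    rw [hcnt, ← Nat.card_eq_fintype_card (α := Z₁), ← Nat.card_eq_fintype_card (α := B), ← Subgroup.index_eq_card,
      Subgroup.card_mul_index]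
    exact hQK
  -- independence
  have hPrep : ∀ b b', P b (ρ (rep b' : G)) = if b' = b then (Fintype.card Q : K) • ρ (rep b' : G) else 0 := by
    intro b b'
    set v := (rep b : G)
    set w := (rep b' : G)
    have hterm : ∀ t : Q, ρ ⁅v, (t : G)⁆ * (ρ (t : G) * (ρ w * ρ (t : G)⁻¹)) = ρ ⁅v * w⁻¹, (t : G)⁆ * ρ w := by
      intro t
      have h1 : ρ (t : G) * (ρ w * ρ (t : G)⁻¹) = ρ ⁅(t : G), w⁆ * ρ w := by
        simp only [← map_mul]; congr 1; rw [commutatorElement_def]; group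
      rw [h1, ← mul_assoc, show ρ ⁅v, (t : G)⁆ = ρ ⁅v * w⁻¹, (t : G)⁆ * ρ ⁅w, (t : G)⁆ by
        rw [← hlin _ (Q.mul_mem (rep b).2 (Q.inv_mem (rep b').2)) w (rep b').2 t t.2, inv_mul_cancel_right],
        mul_assoc (ρ ⁅v * w⁻¹, (t : G)⁆), ← map_mul ρ ⁅w, (t : G)⁆,
        show ⁅w, (t : G)⁆ * ⁅(t : G), w⁆ = 1 by simp only [commutatorElement_def]; group, map_one, mul_one]
    rw [hPapply, Finset.sum_congr rfl fun t _ => hterm t, ← Finset.sum_mul]
    split
    · next h =>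
      subst h
      simp only [v, w, mul_inv_cancel, commutatorElement_one_left, map_one, Finset.sum_const, Finset.card_univ]
      rw [← Nat.cast_smul_eq_nsmul K, smul_mul_assoc, one_mul]
    · next h =>
      rw [horth _ (Q.mul_mem (rep b).2 (Q.inv_mem (rep b').2)) fun hz => h ?_, zero_mul]
      have h2 : ((rep b * (rep b')⁻¹ : Q) : B) = 1 :=
        (QuotientGroup.eq_one_iff _).mpr (Subgroup.mem_subgroupOf.mpr (by simpa using hz))
      rw [QuotientGroup.mk_mul, QuotientGroup.mk_inv, hrep, hrep, mul_inv_eq_one] at h2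
      exact h2.symm
  have hB : Fintype.card B ≤ Module.finrank K V * Module.finrank K V := by
    have hli : LinearIndependent K fun b => ρ (rep b : G) := by
      rw [Fintype.linearIndependent_iff]
      intro c hc b
      have h1 := congrArg (P b) hc
      simp only [map_sum, map_smul, hPrep, map_zero, smul_ite, smul_zero, smul_smul] at h1
      rw [Finset.sum_eq_single b (fun x _ hx => if_neg hx) (by simp), if_pos rfl] at h1
      rcases smul_eq_zero.mp h1 with h | h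
      · exact (mul_eq_zero.mp h).resolve_right hQc
      · obtain ⟨x, hx⟩ := exists_ne (0 : V)
        exact absurd (rho_injective (ρ := ρ) (rep b : G) (by rw [h]; simp)) hx
    have := hli.fintype_card_le_finrank
    rwa [Module.finrank_linearMap] at this
  -- the permutation
  have hmemQ : ∀ (g : G), g ∈ Subgroup.normalizer (Q : Set G) → ∀ t ∈ Q, g * t * g⁻¹ ∈ Q := fun g hg t ht =>
    (Subgroup.mem_normalizer_iff.mp hg t).mp ht
  have hmemZ : ∀ (g : G), g ∈ Subgroup.normalizer (Q : Set G) → ∀ t ∈ Zs, g * t * g⁻¹ ∈ Zs := fun g hg t ht =>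
    hscZ _ (hmemQ g hg t (hZQ ht)) (isScalar_conj (hZ t ht) g)
  let σf : B → B := fun b => ((⟨u * (rep b : G) * u⁻¹, hmemQ u huQ _ (rep b).2⟩ : Q) : B)
  have hσmk : ∀ t : Q, σf (t : B) = ((⟨u * (t : G) * u⁻¹, hmemQ u huQ _ t.2⟩ : Q) : B) := by
    intro t
    refine QuotientGroup.eq.mpr (Subgroup.mem_subgroupOf.mpr ?_)
    show (u * (rep t : G) * u⁻¹)⁻¹ * (u * (t : G) * u⁻¹) ∈ Zs
    rw [show (u * (rep t : G) * u⁻¹)⁻¹ * (u * (t : G) * u⁻¹) = u * ((rep t : G)⁻¹ * t) * u⁻¹ by group]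
    exact hmemZ u huQ _ (Subgroup.mem_subgroupOf.mp (QuotientGroup.eq.mp (hrep t)))
  have hσit : ∀ j (t : Q), σf^[j] (t : B) =
      ((⟨u ^ j * (t : G) * (u ^ j)⁻¹, hmemQ _ (Subgroup.pow_mem _ huQ j) _ t.2⟩ : Q) : B) := by
    intro j
    induction j with
    | zero => intro t; exact congrArg (QuotientGroup.mk (s := Z₁)) (Subtype.ext (by simp))
    | succ j ih =>
      intro t
      rw [Function.iterate_succ_apply', ih, hσmk]
      exact congrArg (QuotientGroup.mk (s := Z₁)) (Subtype.ext (by simp [pow_succ', mul_assoc]))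
  have hσN : ∀ b, σf^[p ^ m] b = b := fun b => by
    obtain ⟨t, rfl⟩ := QuotientGroup.mk_surjective b
    rw [hσit]
    exact congrArg (QuotientGroup.mk (s := Z₁)) (Subtype.ext (by simp [hu]))
  have hσbij : Function.Bijective σf := by
    refine Finite.injective_iff_bijective.mp fun a b h => ?_
    rw [← hσN a, ← hσN b, show p ^ m = p ^ m - 1 + 1 from (Nat.sub_add_cancel (Nat.one_le_pow _ _ hp.out.pos)).symm,
      Function.iterate_succ_apply, Function.iterate_succ_apply, h]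
  let σ : Equiv.Perm B := Equiv.ofBijective σf hσbij
  have hit : ∀ j b, (σ ^ j) b = σf^[j] b := fun j b => by rw [Equiv.Perm.coe_pow]; rfl
  let T : Module.End K V →ₗ[K] Module.End K V :=
    (LinearMap.mulLeft K (ρ u)).comp (LinearMap.mulRight K (ρ u⁻¹))
  have hTapply : ∀ f, T f = ρ u * (f * ρ u⁻¹) := fun f => rfl
  let e : Q ≃ Q :=
    { toFun := fun t => ⟨u * (t : G) * u⁻¹, hmemQ u huQ _ t.2⟩
      invFun := fun t => ⟨u⁻¹ * (t : G) * u, by simpa using hmemQ u⁻¹ (Subgroup.inv_mem _ huQ) _ t.2⟩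
      left_inv := fun t => Subtype.ext (by simp [mul_assoc])
      right_inv := fun t => Subtype.ext (by simp [mul_assoc]) }
  have hfix := Lib.FixHalf.fix_le_orbits σ T P 1 hrange hsum fun b f => by
    rw [hPapply, hPapply, hTapply, hTapply, Finset.sum_mul, Finset.mul_sum]
    refine (Fintype.sum_equiv e _ _ fun t => ?_).symm
    show _ = ρ ⁅(rep (σf b) : G), u * (t : G) * u⁻¹⁆ *
      (ρ (u * (t : G) * u⁻¹) * (ρ u * (f * ρ u⁻¹) * ρ (u * (t : G) * u⁻¹)⁻¹))
    have hcv : σf b = ((⟨u * (rep b : G) * u⁻¹, hmemQ u huQ _ (rep b).2⟩ : Q) : B) := rfl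
    rw [hcoset (rep (σf b)) _ ((hrep _).trans hcv) (u * (t : G) * u⁻¹) (hmemQ u huQ _ t.2)]
    have e1 : ⁅u * (rep b : G) * u⁻¹, u * (t : G) * u⁻¹⁆ * ((u * (t : G) * u⁻¹) * u) =
        u * (⁅(rep b : G), (t : G)⁆ * t) := by simp only [commutatorElement_def]; group
    have e2 : u⁻¹ * (u * (t : G) * u⁻¹)⁻¹ = (t : G)⁻¹ * u⁻¹ := by group
    calc ρ u * (ρ ⁅(rep b : G), (t : G)⁆ * (ρ (t : G) * (f * ρ (t : G)⁻¹)) * ρ u⁻¹)
        = ρ (u * (⁅(rep b : G), (t : G)⁆ * t)) * f * ρ ((t : G)⁻¹ * u⁻¹) := by simp only [map_mul, mul_assoc]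
      _ = ρ (⁅u * (rep b : G) * u⁻¹, u * (t : G) * u⁻¹⁆ * ((u * (t : G) * u⁻¹) * u)) * f *
            ρ (u⁻¹ * (u * (t : G) * u⁻¹)⁻¹) := by rw [e1, e2]
      _ = _ := by simp only [map_mul, mul_assoc]
  obtain ⟨c, hcD, hcS⟩ := flag_bound (ρ u - 1) r hr
  have hker : commutant (ρ u - 1) ≤ LinearMap.ker (T - 1) := by
    intro f hf
    rw [mem_commutant, sub_mul, mul_sub, one_mul, mul_one, sub_left_inj] at hf
    rw [LinearMap.mem_ker, LinearMap.sub_apply, Module.End.one_apply, hTapply, ← mul_assoc, hf, mul_assoc,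
      ← map_mul, mul_inv_cancel, map_one, mul_one, sub_self]
  have h1 := hcS.trans ((Submodule.finrank_mono hker).trans hfix)
  rw [mul_one] at h1
  have h2 : Module.finrank K V * Module.finrank K V ≤ r * ∑ t, c t * c t := by
    have h := Finset.sum_mul_sq_le_sq_mul_sq Finset.univ (fun _ : Fin r => (1 : ℕ)) c
    simp only [one_mul, hcD, one_pow, Finset.sum_const, Finset.card_univ, Fintype.card_fin, smul_eq_mul,
      mul_one] at h
    calc _ = Module.finrank K V ^ 2 := (sq _).symm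
      _ ≤ r * ∑ t, c t ^ 2 := h
      _ = _ := by simp only [sq]
  have hO := orbit_count_pow (m := m) σ (Equiv.ext fun b => by rw [hit, hσN]; rfl)
  haveI : Finite (R ⊓ Q : Subgroup G) :=
    Finite.of_injective _ (Subgroup.inclusion_injective (inf_le_right : R ⊓ Q ≤ Q))
  have hC : Nat.card {b : B // (σ ^ p ^ (m - 1)) b = b} * Nat.card Z₁ ≤ Nat.card (R ⊓ Q : Subgroup G) := by
    rw [← Nat.card_prod]
    refine Nat.card_le_card_of_injective (fun x => (⟨(rep x.1.1 : G) * ((x.2 : Q) : G), ?_,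
      Q.mul_mem (rep x.1.1).2 (x.2 : Q).2⟩ : (R ⊓ Q : Subgroup G))) ?_
    · refine hR _ (Q.mul_mem (rep x.1.1).2 (x.2 : Q).2) ?_
      set y := u ^ p ^ (m - 1)
      have hyQ : y ∈ Subgroup.normalizer (Q : Set G) := Subgroup.pow_mem _ huQ _
      have hzz : ((x.2 : Q) : G) ∈ Zs := Subgroup.mem_subgroupOf.mp x.2.2
      have h3 := x.1.2
      rw [hit] at h3
      conv_lhs at h3 => rw [← hrep x.1.1, hσit]
      conv_rhs at h3 => rw [← hrep x.1.1]
      rw [QuotientGroup.eq, Subgroup.mem_subgroupOf] at h3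
      simp only [Subgroup.coe_mul, InvMemClass.coe_inv] at h3
      set v := (rep x.1.1 : G)
      set z := ((x.2 : Q) : G)
      have hvQ : v ∈ Q := (rep x.1.1).2
      have hv : v ∈ Subgroup.normalizer (Q : Set G) := Subgroup.le_normalizer hvQ
      have h4 : ⁅y, z⁆ ∈ Zs := Zs.mul_mem (hmemZ y hyQ z hzz) (Zs.inv_mem hzz)
      have h5 := Zs.inv_mem (hmemZ v hv _ h3)
      rw [show ⁅y, v * z⁆ = (v * ((y * v * y⁻¹)⁻¹ * v) * v⁻¹)⁻¹ * (v * ⁅y, z⁆ * v⁻¹) by
        simp only [commutatorElement_def]; group]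
      exact Zs.mul_mem h5 (hmemZ v hv _ h4)
    · intro x x' h
      have h' : rep x.1.1 * (x.2 : Q) = rep x'.1.1 * (x'.2 : Q) :=
        Subtype.ext (congrArg (fun w : (R ⊓ Q : Subgroup G) => (w : G)) h)
      have hb : x.1.1 = x'.1.1 := by
        have := congrArg (fun t : Q => (t : B)) h'
        simpa only [QuotientGroup.mk_mul, hrep, (QuotientGroup.eq_one_iff _).mpr x.2.2,
          (QuotientGroup.eq_one_iff _).mpr x'.2.2, mul_one] using this
      rw [hb] at h'
      exact Prod.ext (Subtype.ext hb) (Subtype.ext (mul_left_cancel h'))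
  have hcard : Nat.card Q = Nat.card Z₁ * Fintype.card B := by
    rw [← Nat.card_eq_fintype_card, ← Subgroup.index_eq_card, Subgroup.card_mul_index]
  set O := Nat.card (Quotient (MulAction.orbitRel (Subgroup.zpowers σ) B))
  set C := Nat.card {b : B // (σ ^ p ^ (m - 1)) b = b}
  set nB := Fintype.card B with hnB
  rw [Nat.card_eq_fintype_card (α := B), ← hnB] at hO
  set N := p ^ m
  have h6 : nB ≤ r * O := hB.trans (h2.trans (Nat.mul_le_mul_left r h1))
  have h7 : nB * (N - r) ≤ r * ((N - 1) * C) := by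
    rcases Nat.le_total N r with h | h
    · rw [Nat.sub_eq_zero_of_le h, mul_zero]; exact Nat.zero_le _
    · obtain ⟨s, hs⟩ := Nat.exists_eq_add_of_le h
      have := Nat.mul_le_mul_left N h6
      have := Nat.mul_le_mul_left r hO
      rw [hs, Nat.add_sub_cancel_left]
      rw [hs] at *
      nlinarith
  calc Nat.card Q * (N - r) = Nat.card Z₁ * (nB * (N - r)) := by rw [hcard]; ring
    _ ≤ Nat.card Z₁ * (r * ((N - 1) * C)) := Nat.mul_le_mul_left _ h7
    _ = r * (N - 1) * (C * Nat.card Z₁) := by ring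
    _ ≤ _ := Nat.mul_le_mul_left _ hC

end Cfsg.Agent.Lib.HallHigman
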