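import Cfsg.Agent.Lib.HallHigman.PLength
import Cfsg.Agent.Lib.HallHigman.CommutingRoots

set_option autoImplicit false

/-! The bound `2 e` on the `p`-length for odd `p`. -/

namespace Cfsg.Agent.Lib.HallHigman

open Cfsg
open scoped commutatorElement

universe u

/-- A faithful module on which all `p`-elements are exceptional forces their `p ^ e`-th powers into `O_{p',p}`. -/
theorem pow_mem_upperPSeries_two_of_exceptional {H : Type u} [Group H] [Finite H] {p : ℕ} [hp : Fact p.Prime]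
    (hp2 : p ≠ 2) (hsolH : IsPSolvable p H) (hOpH : pCore p H = ⊥) {V : Type u} [AddCommGroup V]
    [Module (ZMod p) V] [FiniteDimensional (ZMod p) V] (ρ : H →* Module.End (ZMod p) V)
    (hρi : Function.Injective ρ) (e : ℕ)
    (hpoly : ∀ z : H, (∃ a, z ^ p ^ a = 1) → z ^ p ^ (e + 1) = 1 ∧ (ρ z - 1) ^ (p ^ (e + 1) - 1) = 0)
    (y : H) (hy : ∃ a, y ^ p ^ a = 1) : y ^ p ^ e ∈ (upperPSeries p H 2).1 := by
  classical
  obtain ⟨ay, hay⟩ := hy
  have hyp : IsPGroup p (Subgroup.zpowers y) := by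
    obtain ⟨i, -, hi⟩ := (Nat.dvd_prime_pow hp.out).mp (orderOf_dvd_of_pow_eq_one hay)
    exact IsPGroup.of_card (n := i) (by rw [Nat.card_zpowers, hi])
  obtain ⟨P, hyP⟩ := hyp.exists_le_sylow
  have hyP' : y ∈ (P : Subgroup H) := hyP (Subgroup.mem_zpowers y)
  have hPel : ∀ z ∈ (P : Subgroup H), ∃ a, z ^ p ^ a = 1 := fun z hz => by
    obtain ⟨a, ha⟩ := P.isPGroup' ⟨z, hz⟩
    exact ⟨a, congrArg Subtype.val ha⟩
  set K := pPrimeCore p H with hK
  haveI hKn : K.Normal := Subgroup.sSup_normal _ fun _ h => h.1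
  have hKcop : (Nat.card K).Coprime p := Components.pPrimeCore_coprime p
  -- roots commute
  have hcomm : ∀ u ∈ (P : Subgroup H), ∀ u' ∈ (P : Subgroup H), ⁅u ^ p ^ e, u' ^ p ^ e⁆ = 1 := by
    intro u hu u' hu'
    set c := ⁅u ^ p ^ e, u' ^ p ^ e⁆ with hc
    have hroot : ∀ z ∈ (P : Subgroup H), IsRoot p ρ (P : Subgroup H) (z ^ p ^ e) := fun z hz =>
      ⟨z, hz, e + 1, Nat.succ_ne_zero e, (hpoly z (hPel z hz)).1, (hpoly z (hPel z hz)).2, rfl⟩
    have hcP : c ∈ (P : Subgroup H) := by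
      rw [hc, commutatorElement_def]
      have h1 := Subgroup.pow_mem _ hu (p ^ e)
      have h2 := Subgroup.pow_mem _ hu' (p ^ e)
      exact Subgroup.mul_mem _ (Subgroup.mul_mem _ (Subgroup.mul_mem _ h1 h2) (Subgroup.inv_mem _ h1))
        (Subgroup.inv_mem _ h2)
    have hPK : (P : Subgroup H) ≤ Subgroup.normalizer (K : Set H) := by
      rw [Subgroup.normalizer_eq_top (H := K)]; exact le_top
    have hcop : (Nat.card (P : Subgroup H)).Coprime (Nat.card K) := by
      obtain ⟨i, hi⟩ := IsPGroup.iff_card.mp P.isPGroup'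
      rw [hi]; exact hKcop.symm.pow_left i
    have hPsolv : Group.IsSolvable (P : Subgroup H) := by
      haveI := P.isPGroup'.isNilpotent
      infer_instance
    have htop : (Subgroup.centralizer ({c} : Set H)).subgroupOf K = ⊤ := by
      refine Components.eq_top_of_forall_sylow_le fun q hq => ?_
      have := Fact.mk hq
      obtain ⟨S, hS⟩ := Coprime.exists_invariant_sylow hPK hcop (Or.inl hPsolv) q
      refine ⟨S, fun k hk => ?_⟩
      rw [Subgroup.mem_subgroupOf, Subgroup.mem_centralizer_singleton_iff]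
      rcases eq_or_ne q p with rfl | hqp
      · have hk1 : k = 1 := by
          obtain ⟨m, hm⟩ := IsPGroup.iff_card.mp S.isPGroup'
          rcases Nat.eq_zero_or_pos m with hm0 | hm0
          · rw [hm0, pow_zero, Subgroup.card_eq_one] at hm
            exact Subgroup.mem_bot.mp (hm ▸ hk)
          · exact absurd ((dvd_pow_self q hm0.ne').trans
              (hm ▸ Subgroup.card_subgroup_dvd_card (S : Subgroup K))) (hp.out.coprime_iff_not_dvd.mp hKcop.symm)
        rw [hk1, OneMemClass.coe_one, one_mul, mul_one]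
      · have h1 := hρi (commutator_fix hp2 hqp ρ (P : Subgroup H) ((S : Subgroup K).map K.subtype) P.isPGroup'
          (S.isPGroup'.map _) hS (hroot u hu) (hroot u' hu') (k : H) ⟨k, hk, rfl⟩)
        exact (mul_inv_eq_iff_eq_mul.mp h1).symm
    have hcK : c ∈ K := by
      refine centralizer_pPrimeCore_le hsolH hOpH (Subgroup.mem_centralizer_iff.mpr fun k hk => ?_)
      have h1 : (⟨k, hk⟩ : K) ∈ (Subgroup.centralizer ({c} : Set H)).subgroupOf K := htop ▸ Subgroup.mem_top _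
      rw [Subgroup.mem_subgroupOf, Subgroup.mem_centralizer_singleton_iff] at h1
      exact h1
    obtain ⟨a, ha⟩ := hPel c hcP
    have h2 : c ^ Nat.card K = 1 := by
      rw [← Subgroup.coe_mk K c hcK, ← SubgroupClass.coe_pow, pow_card_eq_one', OneMemClass.coe_one]
    have h3 := pow_gcd_eq_one.mpr ⟨ha, h2⟩
    rwa [Nat.Coprime.pow_left a hKcop.symm, pow_one] at h3
  -- modulo `O_{p'}`
  set H1 := H ⧸ K
  haveI : (pCore p H1).Normal := Cfsg.pCore_normal p H1
  have hred1 : pPrimeCore p H1 = ⊥ := OddLocal.pPrimeCore_quotient_eq_bot p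
  have hsol1 : IsPSolvable p H1 := PLength.isPSolvable_map (QuotientGroup.mk'_surjective _) hsolH
  by_cases hmem : (y : H1) ^ p ^ e ∈ pCore p H1
  · haveI : ((pCore p H1).comap (QuotientGroup.mk' K)).Normal := Subgroup.Normal.comap inferInstance _
    refine PLength.le_succ_of_forall (n := 1) ((pCore p H1).comap (QuotientGroup.mk' K)) (fun z hz => ?_) ?_
    · obtain ⟨a, ha⟩ := Components.pCore_isPGroup p (⟨_, hz⟩ : pCore p H1)
      refine ⟨p ^ a, by rw [PLength.Good, if_neg (by decide)]; exact ⟨a, rfl⟩, ?_⟩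
      rw [PLength.upperPSeries_one]
      exact (QuotientGroup.eq_one_iff _).mp (congrArg Subtype.val ha)
    · rw [Subgroup.mem_comap, map_pow]
      exact hmem
  exfalso
  obtain ⟨W, j1, j2, j3, π1, ρ1, hρ1i, hπ1s, hπ1add, hπ10, hρ1⟩ := exists_quotientModule hsol1 hred1
  set X : H1 ⧸ pCore p H1 := ((y : H1) : H1 ⧸ pCore p H1) with hX
  have hXord : orderOf X = p ^ (e + 1) := by
    refine orderOf_eq_prime_pow (fun h => hmem ?_) ?_
    · rwa [hX, ← QuotientGroup.mk_pow, QuotientGroup.eq_one_iff] at h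
    · rw [hX, ← QuotientGroup.mk_pow, ← QuotientGroup.mk_pow, (hpoly y ⟨ay, hay⟩).1, QuotientGroup.mk_one,
        QuotientGroup.mk_one]
  have hzero : (ρ1 X - 1) ^ (p ^ e + (p ^ e - 1)) = 0 := by
    rw [pow_add, rho_sub_one_pow, rho_sub_one_pow_pred]
    refine LinearMap.ext fun u => ?_
    obtain ⟨a, rfl⟩ := hπ1s u
    obtain ⟨v, hvP, hva⟩ : ∃ v ∈ (P : Subgroup H), (v : H1) = (a : H1) :=
      Hall.pCore_le_sylow (P.mapSurjective (QuotientGroup.mk'_surjective K)) a.2
    obtain ⟨w, hw, hπw⟩ := pi_mul_pow π1 hπ1add (fun g u => ρ1 (g : H1 ⧸ pCore p H1) u) hρ1 (y : H1) a (p ^ e)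
    have hsum : (∑ i ∈ Finset.range (p ^ e), ρ1 X ^ i) (π1 a) = π1 w := by
      rw [hπw, LinearMap.sum_apply]
      exact Finset.sum_congr rfl fun i _ => by rw [hX, QuotientGroup.mk_pow, map_pow]
    have hYw : MulAut.conjNormal ((y : H1) ^ p ^ e) w = w := by
      refine Subtype.ext ?_
      rw [MulAut.conjNormal_apply, hw, ← hva, ← QuotientGroup.mk_mul, ← QuotientGroup.mk_pow, ← QuotientGroup.mk_pow,
        ← QuotientGroup.mk_inv, ← QuotientGroup.mk_mul, ← QuotientGroup.mk_mul, ← QuotientGroup.mk_mul]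
      have h1 := commutatorElement_eq_one_iff_mul_comm.mp (hcomm y hyP' (v * y) (Subgroup.mul_mem _ hvP hyP'))
      congr 1
      rw [← mul_assoc, h1, mul_inv_cancel_right]
    rw [Module.End.mul_apply, hsum, LinearMap.sub_apply, Module.End.one_apply, LinearMap.zero_apply, sub_eq_zero,
      ← map_pow, hX, ← QuotientGroup.mk_pow, hρ1, hYw]
  have hp3 : 3 ≤ p := by have := hp.out.two_le; omega
  have hpe := Nat.one_le_pow e p hp.out.pos
  rcases bound_of_faithful (PLength.isPSolvable_map (QuotientGroup.mk'_surjective _) hsol1)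
      PLength.pCore_quotient_pCore_eq_bot ρ1 hρ1i X (e + 1) (p ^ e + (p ^ e - 1)) (Nat.succ_ne_zero e) hXord hzero
    with h | ⟨n₀, q, j, h1, h2, -, -, -, -, -, h3⟩
  · have : 3 * p ^ e ≤ p ^ (e + 1) := by rw [pow_succ']; exact Nat.mul_le_mul_right _ hp3
    omega
  · have hA : p ^ (e + 1 - n₀) ≤ p ^ e := Nat.pow_le_pow_right hp.out.pos (by omega)
    have hAB : p ^ (e + 1 - n₀) * p ^ n₀ = p ^ (e + 1) := by rw [← pow_add]; congr 1; omega
    have h3p : 3 * p ^ e ≤ p ^ (e + 1) := by rw [pow_succ']; exact Nat.mul_le_mul_right _ hp3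
    rw [Nat.mul_sub, hAB, mul_one] at h3
    omega

/-- In `G ⧸ O_p(G)` the `p ^ e`-th powers of `p`-elements lie in `O_{p',p}` when `G` has exponent `p ^ (e + 1)`. -/
theorem pow_mem_upperPSeries_two {G : Type u} [Group G] [Finite G] {p : ℕ} [hp : Fact p.Prime]
    [(pCore p G).Normal] (hp2 : p ≠ 2) (hsol : IsPSolvable p G) (hred : pPrimeCore p G = ⊥) (e : ℕ)
    (hexp : ∀ x : G, (∃ a, x ^ p ^ a = 1) → x ^ p ^ (e + 1) = 1) (y : G ⧸ pCore p G) (hy : ∃ a, y ^ p ^ a = 1) :
    y ^ p ^ e ∈ (upperPSeries p (G ⧸ pCore p G) 2).1 := by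
  classical
  obtain ⟨V, i1, i2, i3, π, ρ, hρi, hπs, hπadd, hπ0, hρ⟩ := exists_quotientModule hsol hred
  have hsolH : IsPSolvable p (G ⧸ pCore p G) := PLength.isPSolvable_map (QuotientGroup.mk'_surjective _) hsol
  have hOpH : pCore p (G ⧸ pCore p G) = ⊥ := PLength.pCore_quotient_pCore_eq_bot
  have hpoly : ∀ z : G ⧸ pCore p G, (∃ a, z ^ p ^ a = 1) →
      z ^ p ^ (e + 1) = 1 ∧ (ρ z - 1) ^ (p ^ (e + 1) - 1) = 0 := by
    rintro z ⟨a, ha⟩
    obtain ⟨x, rfl, b, hb⟩ := exists_pElement_lift (pCore p G) ha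
    refine ⟨by rw [← QuotientGroup.mk_pow, hexp x ⟨b, hb⟩, QuotientGroup.mk_one], ?_⟩
    rw [rho_sub_one_pow_pred]
    refine LinearMap.ext fun u => ?_
    obtain ⟨v, rfl⟩ := hπs u
    obtain ⟨w, hw, hπw⟩ := pi_mul_pow π hπadd (fun g u => ρ (g : G ⧸ pCore p G) u) hρ x v (p ^ (e + 1))
    have hvx : ∃ c, ((v : G) * x) ^ p ^ c = 1 := by
      have h1 : (((v : G) * x : G) : G ⧸ pCore p G) ^ p ^ a = 1 := by
        rw [QuotientGroup.mk_mul, (QuotientGroup.eq_one_iff _).mpr v.2, one_mul, ha]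
      rw [← QuotientGroup.mk_pow, QuotientGroup.eq_one_iff] at h1
      obtain ⟨c, hc⟩ := Components.pCore_isPGroup p (⟨_, h1⟩ : pCore p G)
      exact ⟨a + c, by rw [pow_add, pow_mul]; exact congrArg Subtype.val hc⟩
    rw [hexp _ hvx, hexp x ⟨b, hb⟩, inv_one, mul_one] at hw
    rw [LinearMap.zero_apply, LinearMap.sum_apply]
    calc ∑ i ∈ Finset.range (p ^ (e + 1)), (ρ (x : G ⧸ pCore p G) ^ i) (π v) = π w := by
          rw [hπw]; exact Finset.sum_congr rfl fun i _ => by rw [QuotientGroup.mk_pow, map_pow]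
      _ = 0 := by
          rw [show w = 1 from Subtype.ext hw]
          exact (hπ0 1).mpr (one_mem _)
  exact pow_mem_upperPSeries_two_of_exceptional hp2 hsolH hOpH ρ hρi e hpoly y hy

/-- The bound `2 e` for odd primes. -/
theorem pLengthLE_twice {G : Type u} [Group G] [Finite G] {p : ℕ} [hp : Fact p.Prime] (hp2 : p ≠ 2)
    (hsol : IsPSolvable p G) (e : ℕ) (hexp : ∀ x : G, (∃ a, x ^ p ^ a = 1) → x ^ p ^ e = 1) :
    PLengthLE p (2 * e) G := by
  let Φ : ∀ (H : Type u) [Group H], ℕ → Prop := fun H _ k =>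
    ∀ x : H, (∃ a, x ^ p ^ a = 1) →
      if Even k then x ^ p ^ (k / 2) = 1 else x ^ p ^ (k / 2) ∈ (upperPSeries p H 2).1
  refine pLengthLE_induction Φ ?_ ?_ ?_ (Nat.card G) G (2 * e) rfl hsol ?_
  · intro H _ _ k N _ hH y hy
    obtain ⟨a, ha⟩ := hy
    obtain ⟨x, rfl, hx⟩ := exists_pElement_lift N ha
    have h := hH x hx
    split <;> rename_i hk
    · rw [if_pos hk] at h
      rw [← QuotientGroup.mk_pow, h, QuotientGroup.mk_one]
    · rw [if_neg hk] at h
      rw [← QuotientGroup.mk_pow]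
      exact PLength.map_upperPSeries_le (QuotientGroup.mk'_surjective N) 2 (Subgroup.mem_map_of_mem _ h)
  · intro H _ _ hH hdvd
    obtain ⟨x, hx⟩ := exists_prime_orderOf_dvd_card' p hdvd
    have h1 := hH x ⟨1, by rw [pow_one, ← hx]; exact pow_orderOf_eq_one x⟩
    rw [if_pos ⟨0, rfl⟩, Nat.zero_div, pow_zero, pow_one] at h1
    rw [h1, orderOf_one] at hx
    exact hp.out.one_lt.ne hx
  · intro H _ _ _ k hHsol hred _ hH y hy
    obtain ⟨j, rfl | rfl⟩ := Nat.even_or_odd' k
    · rw [if_pos (even_two_mul j), Nat.mul_div_cancel_left j two_pos]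
      obtain ⟨a, ha⟩ := hy
      obtain ⟨x, rfl, hx⟩ := exists_pElement_lift (pCore p H) ha
      have h := hH x hx
      rw [if_neg (by simp [Nat.even_add_one]), show (2 * j + 1) / 2 = j by omega] at h
      rw [← QuotientGroup.mk_pow, QuotientGroup.eq_one_iff]
      exact PLength.upperPSeries_two_le_pCore hred h
    · rw [if_neg (by simp [Nat.even_add_one]), show (2 * j + 1) / 2 = j by omega]
      refine pow_mem_upperPSeries_two hp2 hHsol hred j (fun x hx => ?_) y hy
      have h := hH x hx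
      rwa [if_pos (by simp [Nat.even_add_one]), show (2 * j + 1 + 1) / 2 = j + 1 by omega] at h
  · intro x hx
    rw [if_pos (even_two_mul e), Nat.mul_div_cancel_left e two_pos]
    exact hexp x hx

end Cfsg.Agent.Lib.HallHigman
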